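import Mathlib

/-!
Counting lemmas for additive subgroups of a finite field and for alternating pairings.
-/

set_option autoImplicit false

open scoped Classical

namespace CfsgLib.MinIndexPSp

variable {F : Type*} [Field F] [Fintype F]

/-- Scalars preserving a proper additive subgroup. -/
theorem card_scalar_stab (A : AddSubgroup F) (hA : A ≠ ⊤) (S : Set F)
    (hS : ∀ c ∈ S, c ≠ 0 ∧ ∀ a ∈ A, c * a ∈ A) :
    (Nat.card S + 1) * Nat.card A ≤ Fintype.card F := by
  obtain ⟨y, hy⟩ : ∃ y, y ∉ A := by
    by_contra h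
    push Not at h
    exact hA (eq_top_iff.mpr fun y _ => h y)
  have key : ∀ d : F, d ≠ 0 → (∀ a ∈ A, d * a ∈ A) → d * y ∉ A := by
    intro d hd hdA hdy
    have hinj : Function.Injective fun a : A => (⟨d * a, hdA a a.2⟩ : A) := fun a b h =>
      Subtype.ext (mul_left_cancel₀ hd (congrArg Subtype.val h))
    obtain ⟨a, ha⟩ := Finite.surjective_of_injective hinj ⟨d * y, hdy⟩
    exact hy (mul_left_cancel₀ hd (congrArg Subtype.val ha) ▸ a.2)
  let φ : Option S → F ⧸ A := fun o => o.elim 0 fun c => ((c.1 * y : F) : F ⧸ A)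
  have hφ : Function.Injective φ := by
    rintro (_ | ⟨c, hc⟩) (_ | ⟨d, hd⟩) h <;> simp only [φ, Option.elim] at h
    · rfl
    · exact absurd ((QuotientAddGroup.eq_zero_iff _).mp h.symm) (key d (hS d hd).1 (hS d hd).2)
    · exact absurd ((QuotientAddGroup.eq_zero_iff _).mp h) (key c (hS c hc).1 (hS c hc).2)
    · rcases eq_or_ne c d with rfl | hne
      · rfl
      · refine absurd ((QuotientAddGroup.eq_iff_sub_mem).mp h) ?_
        rw [← sub_mul]
        exact key _ (sub_ne_zero.mpr hne) fun a ha => by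
          rw [sub_mul]; exact A.sub_mem ((hS c hc).2 a ha) ((hS d hd).2 a ha)
  have h1 := Nat.card_le_card_of_injective φ hφ
  rw [Finite.card_option] at h1
  calc (Nat.card S + 1) * Nat.card A ≤ Nat.card (F ⧸ A) * Nat.card A := Nat.mul_le_mul_right _ h1
    _ = Fintype.card F := by rw [← AddSubgroup.card_eq_card_quotient_mul_card_addSubgroup, Nat.card_eq_fintype_card]

theorem card_addSubgroup_mul_two_le (A : AddSubgroup F) (hA : A ≠ ⊤) : 2 * Nat.card A ≤ Fintype.card F := by
  have h := card_scalar_stab A hA {1} fun c hc => by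
    rw [Set.mem_singleton_iff] at hc
    exact ⟨hc ▸ one_ne_zero, fun a ha => by rwa [hc, one_mul]⟩
  simpa using h

/-- Multipliers whose squares preserve a proper additive subgroup. -/
theorem card_sq_stab (A : AddSubgroup F) (hA : A ≠ ⊤) (Γ : Subgroup Fˣ)
    (hΓ : ∀ μ ∈ Γ, ∀ a ∈ A, (μ : F) ^ 2 * a ∈ A) :
    (Nat.card Γ + 2) * Nat.card A ≤ 2 * Fintype.card F ∧
      ((2 : F) = 0 → (Nat.card Γ + 1) * Nat.card A ≤ Fintype.card F) := by
  let S : Set F := Set.range fun μ : Γ => ((μ : Fˣ) : F) ^ 2
  have h := card_scalar_stab A hA S (by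
    rintro c ⟨μ, rfl⟩
    exact ⟨pow_ne_zero _ (μ : Fˣ).ne_zero, hΓ _ μ.2⟩)
  refine ⟨?_, fun h2 => ?_⟩
  · have hle : Nat.card Γ ≤ 2 * Nat.card S := by
      rw [Nat.card_eq_fintype_card, Nat.card_eq_fintype_card, ← Finset.card_univ (α := Γ), ← Finset.card_univ (α := S)]
      refine Finset.card_le_mul_card_image_of_maps_to (f := fun μ : Γ => (⟨_, μ, rfl⟩ : S))
        (fun _ _ => Finset.mem_univ _) 2 fun c _ => ?_
      obtain ⟨c, ν, rfl⟩ := c
      refine (Finset.card_le_card_of_injOn (fun μ : Γ => ((μ : Fˣ) : F)) (t := {((ν : Fˣ) : F), -((ν : Fˣ) : F)})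
        (fun μ hμ => ?_) ?_).trans Finset.card_le_two
      · simp only [Finset.mem_coe, Finset.mem_filter, Subtype.mk.injEq] at hμ
        simp only [Finset.coe_insert, Finset.coe_singleton, Set.mem_insert_iff, Set.mem_singleton_iff]
        exact sq_eq_sq_iff_eq_or_eq_neg.mp (congrArg Subtype.val hμ.2)
      · exact fun a _ b _ hab => Subtype.ext (Units.ext hab)
    calc (Nat.card Γ + 2) * Nat.card A ≤ 2 * ((Nat.card S + 1) * Nat.card A) := by
          rw [← mul_assoc]; exact Nat.mul_le_mul_right _ (by omega)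
      _ ≤ 2 * Fintype.card F := Nat.mul_le_mul_left _ h
  · have hle : Nat.card Γ ≤ Nat.card S := by
      refine Nat.card_le_card_of_injective (fun μ : Γ => (⟨_, μ, rfl⟩ : S)) fun a b hab => ?_
      have hab' : ((a : Fˣ) : F) ^ 2 = ((b : Fˣ) : F) ^ 2 := congrArg Subtype.val hab
      have hneg : ∀ x : F, -x = x := fun x => by linear_combination (-x) * h2
      rcases sq_eq_sq_iff_eq_or_eq_neg.mp hab' with e | e
      · exact Subtype.ext (Units.ext e)
      · exact Subtype.ext (Units.ext (by rwa [hneg] at e))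
    exact le_trans (Nat.mul_le_mul_right _ (by omega)) h

section Pairing

variable {W : Type*} [AddCommGroup W] [Module F W] [Finite W]

/-- The annihilator of an additive subgroup under a nondegenerate pairing. -/
theorem card_annihilator (b : W → W → F) (hl : ∀ x y z, b x (y + z) = b x y + b x z)
    (hr : ∀ x y z, b (x + y) z = b x z + b y z) (hs : ∀ x (c : F) y, b x (c • y) = c * b x y)
    (hnd : ∀ x, (∀ y, b x y = 0) → x = 0) (ψ : AddChar F ℂ) (hψ : ψ ≠ 1) (R : AddSubgroup W) :
    Nat.card {x : W // ∀ r ∈ R, ψ (b x r) = 1} * Nat.card R = Nat.card W := by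
  haveI := Fintype.ofFinite W
  let ι : W → AddChar W ℂ := fun x => ψ.compAddMonoidHom (AddMonoidHom.mk' (b x) (hl x))
  have hι : ∀ x y, ι x y = ψ (b x y) := fun x y => rfl
  obtain ⟨t, ht⟩ := AddChar.ne_one_iff.mp hψ
  have hinj : Function.Injective ι := by
    intro x y h
    have h0 : ∀ z, ψ (b (x - y) z) = 1 := fun z => by
      have e : b x z = b (x - y) z + b y z := by rw [← hr, sub_add_cancel]
      have := DFunLike.congr_fun h z
      rw [hι, hι, e, AddChar.map_add_eq_mul] at this
      exact mul_eq_right₀ (ψ.val_isUnit _).ne_zero |>.mp this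
    by_contra hne
    obtain ⟨z, hz⟩ : ∃ z, b (x - y) z ≠ 0 := by
      by_contra hh
      push Not at hh
      exact hne (sub_eq_zero.mp (hnd _ hh))
    have := h0 ((t / b (x - y) z) • z)
    rw [hs, div_mul_cancel₀ _ hz] at this
    exact ht this
  have hbij : Function.Bijective ι := (Fintype.bijective_iff_injective_and_card ι).mpr ⟨hinj, AddChar.card_eq.symm⟩
  let π : W →+ W ⧸ R := QuotientAddGroup.mk' R
  have hπ : Function.Surjective π := QuotientAddGroup.mk'_surjective R
  haveI := Fintype.ofFinite (W ⧸ R)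
  let j : AddChar (W ⧸ R) ℂ → {x : W // ∀ r ∈ R, ψ (b x r) = 1} := fun χ =>
    ⟨(Equiv.ofBijective ι hbij).symm (χ.compAddMonoidHom π), fun r hr' => by
      rw [← hι, Equiv.ofBijective_apply_symm_apply ι hbij, AddChar.compAddMonoidHom_apply]
      rw [show π r = 0 from (QuotientAddGroup.eq_zero_iff r).mpr hr', AddChar.map_zero_eq_one]⟩
  have hj : Function.Bijective j := by
    refine ⟨fun χ χ' h => ?_, fun ⟨x, hx⟩ => ?_⟩
    · have h' := (Equiv.ofBijective ι hbij).symm.injective (congrArg (fun p => p.1) h)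
      refine DFunLike.ext _ _ fun w => ?_
      obtain ⟨w, rfl⟩ := hπ w
      exact DFunLike.congr_fun h' w
    · let χ : AddChar (W ⧸ R) ℂ := AddChar.toAddMonoidHomEquiv.symm
        (QuotientAddGroup.lift R (ι x).toAddMonoidHom fun r hr' => by
          show Additive.ofMul (ι x r) = 0
          rw [hι, hx r hr']; rfl)
      refine ⟨χ, Subtype.ext ?_⟩
      show (Equiv.ofBijective ι hbij).symm (χ.compAddMonoidHom π) = x
      rw [Equiv.symm_apply_eq]
      exact DFunLike.ext _ _ fun w => rfl
  rw [← Nat.card_congr (Equiv.ofBijective j hj), Nat.card_eq_fintype_card, AddChar.card_eq,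
    ← Nat.card_eq_fintype_card, ← AddSubgroup.card_eq_card_quotient_mul_card_addSubgroup]

/-- A subgroup on which the pairing lies in a proper subgroup has order at most the square root. -/
theorem sq_card_le (b : W → W → F) (hl : ∀ x y z, b x (y + z) = b x y + b x z)
    (hr : ∀ x y z, b (x + y) z = b x z + b y z) (hs : ∀ x (c : F) y, b x (c • y) = c * b x y)
    (hnd : ∀ x, (∀ y, b x y = 0) → x = 0) (A : AddSubgroup F) (hA : A ≠ ⊤) (R : AddSubgroup W)
    (hR : ∀ x ∈ R, ∀ y ∈ R, b x y ∈ A) : Nat.card R * Nat.card R ≤ Nat.card W := by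
  obtain ⟨y, hy⟩ : ∃ y, y ∉ A := by
    by_contra h
    push Not at h
    exact hA (eq_top_iff.mpr fun y _ => h y)
  obtain ⟨χ, hχ⟩ := (AddChar.exists_apply_ne_zero (a := (y : F ⧸ A))).mpr fun h =>
    hy ((QuotientAddGroup.eq_zero_iff _).mp h)
  let ψ : AddChar F ℂ := χ.compAddMonoidHom (QuotientAddGroup.mk' A)
  have hψ : ψ ≠ 1 := AddChar.ne_one_iff.mpr ⟨y, hχ⟩
  refine le_trans (Nat.mul_le_mul_right _ ?_) (card_annihilator b hl hr hs hnd ψ hψ R).le
  refine Nat.card_le_card_of_injective
    (fun r : R => (⟨r.1, fun s hs' => ?_⟩ : {x : W // ∀ r ∈ R, ψ (b x r) = 1})) fun a c h =>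
      Subtype.ext (congrArg (fun p => p.1) h)
  show χ _ = 1
  rw [show QuotientAddGroup.mk' A (b r.1 s) = 0 from (QuotientAddGroup.eq_zero_iff _).mpr (hR _ r.2 _ hs'),
    AddChar.map_zero_eq_one]

end Pairing

/-- In characteristic two, a function with alternating polar form takes two nonzero values on some line. -/
theorem exists_two_values {W : Type*} [AddCommGroup W] [Module F W] (b : W → W → F)
    (hadd : ∀ x y z, b x (y + z) = b x y + b x z) (hs : ∀ x (c : F) y, b x (c • y) = c * b x y) (hs' : ∀ (c : F) x y, b (c • x) y = c * b x y)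
    (h2 : (2 : F) = 0) (hq : 4 ≤ Fintype.card F) (A : AddSubgroup F) (hA : A ≠ ⊤)
    (f : W → F) (hf : ∀ x y, f (x + y) - f x - f y - b x y ∈ A) (x y : W) (hxy : b x y = 1) :
    ∃ (u : W) (a1 a2 c1 c2 : F), c1 ≠ c2 ∧ c1 ≠ 0 ∧ c2 ≠ 0 ∧ c1 - f (a1 • u) ∈ A ∧ c2 - f (a2 • u) ∈ A := by
  by_cases hA0 : ∃ a ∈ A, a ≠ 0
  · obtain ⟨a, ha, ha0⟩ := hA0
    obtain ⟨w, hw⟩ : ∃ w, f w ∉ A := by
      by_contra h
      push Not at h
      refine hA (eq_top_iff.mpr fun c _ => ?_)
      have e := hf x (c • y)
      rw [hs, hxy, mul_one] at e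
      have := A.sub_mem (A.sub_mem (A.sub_mem (h (x + c • y)) (h x)) (h (c • y))) e
      rwa [sub_sub_cancel] at this
    refine ⟨w, 1, 1, f w, f w + a, ?_, ?_, ?_, by simp [A.zero_mem], by simp [ha]⟩
    · simpa using ha0
    · exact fun e => hw (e ▸ A.zero_mem)
    · exact fun e => hw (by rw [eq_neg_of_add_eq_zero_left e]; exact A.neg_mem ha)
  push Not at hA0
  have hf' : ∀ x y, f (x + y) = f x + f y + b x y := fun x y => by
    have := hA0 _ (hf x y); linear_combination this
  have hzero : b 0 0 = 0 := by have := hs 0 0 0; simpa using this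
  have hf0 : f 0 = 0 := by
    have := hf' 0 0
    rw [add_zero, hzero, add_zero] at this
    linear_combination -this
  have hbself : ∀ x, b x x = 0 := fun x => by
    have := hf' x x
    rw [← two_smul F x, h2, zero_smul, hf0] at this
    linear_combination -this - f x * h2
  have hline : ∀ (u : W) (s t : F), f ((s + t) • u) = f (s • u) + f (t • u) := fun u s t => by
    rw [add_smul, hf', hs, hs', hbself, mul_zero, mul_zero, add_zero]
  have hcomb : ∀ (u v : W) (s t : F), f (s • u + t • v) = f (s • u) + f (t • v) + s * t * b u v :=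
    fun u v s t => by rw [hf', hs, hs']; ring
  by_contra H
  push Not at H
  have hH : ∀ (u : W) (s t : F), f (s • u) ≠ 0 → f (t • u) ≠ 0 → f (s • u) = f (t • u) := by
    intro u s t hs0 ht0
    by_contra hne
    exact H u s t _ _ hne hs0 ht0 (by simp [A.zero_mem]) (by simp [A.zero_mem])
  -- the kernel of each line has at most two cosets
  have hker : ∀ u : W, Fintype.card F ≤ 2 * (Finset.univ.filter fun s : F => f (s • u) = 0).card := by
    intro u
    set Z := Finset.univ.filter fun s : F => f (s • u) = 0 with hZ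
    by_cases hall : ∀ s : F, f (s • u) = 0
    · rw [show Z = Finset.univ from Finset.filter_true_of_mem fun s _ => hall s, Finset.card_univ]; omega
    push Not at hall
    obtain ⟨s0, hs0⟩ := hall
    have hsub : (Finset.univ : Finset F) ⊆ Z ∪ Z.image (· + s0) := by
      intro s _
      by_cases h : f (s • u) = 0
      · exact Finset.mem_union_left _ (Finset.mem_filter.mpr ⟨Finset.mem_univ _, h⟩)
      · refine Finset.mem_union_right _ (Finset.mem_image.mpr ⟨s + s0, Finset.mem_filter.mpr ⟨Finset.mem_univ _, ?_⟩, ?_⟩)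
        · rw [hline, hH u s s0 h hs0, ← two_mul, h2, zero_mul]
        · rw [add_assoc, ← two_mul, h2, zero_mul, add_zero]
    have := (Finset.card_le_card hsub).trans (Finset.card_union_le _ _)
    rw [Finset.card_univ] at this
    have := Finset.card_image_le (s := Z) (f := (· + s0))
    omega
  rcases Nat.lt_or_ge 4 (Fintype.card F) with h5 | h4
  · -- two points of the product of the kernels with equal ratio
    set Zx := (Finset.univ.filter fun s : F => f (s • x) = 0).erase 0
    set Zy := (Finset.univ.filter fun s : F => f (s • y) = 0).erase 0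
    have hx := hker x; have hy := hker y
    have e1 : Zx.card + 1 = (Finset.univ.filter fun s : F => f (s • x) = 0).card :=
      Finset.card_erase_add_one (Finset.mem_filter.mpr ⟨Finset.mem_univ _, by rw [zero_smul, hf0]⟩)
    have e2 : Zy.card + 1 = (Finset.univ.filter fun s : F => f (s • y) = 0).card :=
      Finset.card_erase_add_one (Finset.mem_filter.mpr ⟨Finset.mem_univ _, by rw [zero_smul, hf0]⟩)
    have hev : 8 ≤ Fintype.card F := by
      haveI : CharP F 2 := CharTwo.of_one_ne_zero_of_two_eq_zero one_ne_zero h2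
      obtain ⟨⟨k, hk0⟩, -, hk⟩ := FiniteField.card F 2
      simp only [PNat.mk_coe] at hk
      rw [hk] at h5 ⊢
      have : 2 < k := (Nat.pow_lt_pow_iff_right (by norm_num : 1 < 2)).mp (by simpa using h5)
      exact le_trans (by norm_num) (Nat.pow_le_pow_right (by norm_num) this)
    have hbig : ((Finset.univ : Finset F).erase 0).card < (Zx ×ˢ Zy).card := by
      rw [Finset.card_erase_of_mem (Finset.mem_univ _), Finset.card_univ, Finset.card_product]
      have hh : 3 ≤ Zy.card := by omega
      calc Fintype.card F - 1 < Zx.card * 3 := by omega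
        _ ≤ Zx.card * Zy.card := Nat.mul_le_mul_left _ hh
    obtain ⟨⟨s1, t1⟩, hp, ⟨s2, t2⟩, hr, hne, heq⟩ :=
      Finset.exists_ne_map_eq_of_card_lt_of_maps_to hbig (f := fun p : F × F => p.1 / p.2) fun p hp => by
        simp only [Finset.mem_coe, Finset.mem_product, Zx, Zy, Finset.mem_erase] at hp
        simp [hp.1.1, hp.2.1]
    simp only [Zx, Zy, Finset.mem_product, Finset.mem_erase, Finset.mem_filter, Finset.mem_univ, true_and] at hp hr
    obtain ⟨⟨hs1, hfs1⟩, ht1, hft1⟩ := hp
    obtain ⟨⟨hs2, hfs2⟩, ht2, hft2⟩ := hr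
    simp only [div_eq_div_iff ht1 ht2] at heq
    set z := s1 • x + t1 • y
    have hl : (s2 / s1) • z = s2 • x + t2 • y := by
      simp only [z, smul_add, smul_smul]
      congr 2
      · exact div_mul_cancel₀ _ hs1
      · field_simp; linear_combination -heq
    have h1 : f ((1 : F) • z) = s1 * t1 := by rw [one_smul, hcomb, hfs1, hft1, hxy]; ring
    have h2' : f ((s2 / s1) • z) = s2 * t2 := by rw [hl, hcomb, hfs2, hft2, hxy]; ring
    have he := hH z 1 (s2 / s1) (by rw [h1]; exact mul_ne_zero hs1 ht1) (by rw [h2']; exact mul_ne_zero hs2 ht2)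
    rw [h1, h2'] at he
    refine hne (Prod.ext ?_ ?_)
    · have : s1 ^ 2 = s2 ^ 2 := mul_right_cancel₀ ht1 (by linear_combination s1 * he + s2 * heq)
      rcases sq_eq_sq_iff_eq_or_eq_neg.mp this with e | e
      · exact e
      · exact e.trans (by linear_combination -s2 * h2)
    · have : t1 ^ 2 = t2 ^ 2 := mul_left_cancel₀ hs1 (by linear_combination t1 * he - t2 * heq)
      rcases sq_eq_sq_iff_eq_or_eq_neg.mp this with e | e
      · exact e
      · exact e.trans (by linear_combination -t2 * h2)
  -- four elements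
  have hq4 : Fintype.card F = 4 := le_antisymm h4 hq
  obtain ⟨w, hw0, hw1⟩ : ∃ w : F, w ≠ 0 ∧ w ≠ 1 := by
    obtain ⟨w, -, hw⟩ := Finset.exists_mem_notMem_of_card_lt_card (t := (Finset.univ : Finset F))
      (s := ({0, 1} : Finset F)) (by rw [Finset.card_univ]; exact lt_of_le_of_lt Finset.card_le_two (by omega))
    simp only [Finset.mem_insert, Finset.mem_singleton, not_or] at hw
    exact ⟨w, hw.1, hw.2⟩
  have hsub : ∀ c : F, c ≠ 1 → c + 1 ≠ 0 := fun c hc e => hc (by linear_combination e - h2)
  have hall : ∀ c : F, c = 0 ∨ c = 1 ∨ c = w ∨ c = w + 1 := by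
    intro c
    have hcard : ({0, 1, w, w + 1} : Finset F).card = 4 := by
      rw [Finset.card_insert_of_notMem, Finset.card_insert_of_notMem, Finset.card_insert_of_notMem, Finset.card_singleton]
      all_goals simp [hw0, hw1, hw0.symm, hw1.symm, (hsub w hw1).symm]
    have := Finset.eq_univ_of_card _ (hcard.trans hq4.symm) ▸ Finset.mem_univ c
    simpa using this
  have hww : w ^ 2 = w + 1 := by
    rcases hall (w ^ 2) with e | e | e | e
    · exact absurd (pow_eq_zero_iff two_ne_zero |>.mp e) hw0
    · rcases sq_eq_one_iff.mp e with e' | e'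
      · exact absurd e' hw1
      · exact absurd (e'.trans (by linear_combination -h2)) hw1
    · exact absurd (mul_left_cancel₀ hw0 (by linear_combination e : w * w = w * 1)) hw1
    · exact e
  -- kernel representatives
  have hrep : ∀ u : W, u ≠ 0 → ∃ s : F, s ≠ 0 ∧ f (s • u) = 0 := fun u _ => by
    by_contra h
    push Not at h
    have h' := hker u
    have h1 : (Finset.univ.filter fun s : F => f (s • u) = 0).card ≤ 1 := Finset.card_le_one.mpr fun a ha c hc => by
      simp only [Finset.mem_filter, Finset.mem_univ, true_and] at ha hc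
      rw [not_ne_iff.mp fun e => h a e ha, not_ne_iff.mp fun e => h c e hc]
    omega
  have step : ∀ (p r : W) (β : F), f p = 0 → f r = 0 → b p r = β → β ≠ 0 →
      ∃ l : F, (l = w ∨ l = w + 1) ∧ f (w • p) + f (w • r) = l * β := by
    intro p r β hp hr hb hβ
    have h1 : f ((1 : F) • (p + r)) = β := by
      rw [one_smul, hf', hp, hr, hb]; ring
    have h3 : ∀ l : F, f (l • (p + r)) = f (l • p) + f (l • r) + l ^ 2 * β := fun l => by
      rw [smul_add, hcomb, hb]; ring
    have hw' : ∀ v : W, f v = 0 → f ((w + 1) • v) = f (w • v) := fun v hv => by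
      rw [hline, one_smul, hv, add_zero]
    have e1 : f (w • (p + r)) = f (w • p) + f (w • r) + (w + 1) * β := by rw [h3, hww]
    by_cases hz : f (w • (p + r)) = 0
    · exact ⟨w + 1, Or.inr rfl, by linear_combination -e1 + hz - (w + 1) * β * h2⟩
    · have e2 := hH _ w 1 hz (by rw [h1]; exact hβ)
      rw [h1] at e2
      exact ⟨w, Or.inl rfl, by linear_combination -e1 + e2 - (w + 1) * β * h2 + β * h2⟩
  have hx0 : x ≠ 0 := fun e => by
    have := hs' 0 x y
    rw [e, zero_smul, ← e, hxy] at this
    simp at this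
  have hy0 : y ≠ 0 := fun e => by
    have := hs x 0 y
    rw [e, zero_smul, ← e, hxy] at this
    simp at this
  obtain ⟨s, hs0, hfs⟩ := hrep x hx0
  obtain ⟨t, ht0, hft⟩ := hrep y hy0
  set p := s • x; set r := t • y
  have hb : b p r = s * t := by simp only [p, r]; rw [hs, hs', hxy]; ring
  set β := s * t
  have hβ : β ≠ 0 := mul_ne_zero hs0 ht0
  obtain ⟨l, hl, hD⟩ := step p r β hfs hft hb hβ
  have hll : l ^ 2 + l + 1 = 0 := by
    rcases hl with rfl | rfl
    · linear_combination hww + (l + 1) * h2
    · linear_combination hww + (2 * w + 2) * h2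
  have hl0 : l ≠ 0 := fun e => by rw [e] at hll; simpa using hll
  -- the representative of the line of `p + r`
  set z := (l ^ 2) • (p + r)
  have hfz : f z = 0 := by
    have e3 : f (l • (p + r)) = β := ?_
    · have e : l ^ 2 = l + 1 := by linear_combination hll - (l + 1) * h2
      simp only [z]
      rw [e, hline, e3, one_smul, hf', hfs, hft, hb]
      linear_combination β * h2
    · have hw' : ∀ v : W, f v = 0 → f (l • v) = f (w • v) := fun v hv => by
        rcases hl with rfl | rfl
        · rfl
        · rw [hline, one_smul, hv, add_zero]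
      rw [smul_add, hcomb, hb, hw' p hfs, hw' r hft]
      linear_combination hD + β * hll - β * h2
  have hwz : f (w • z) = β := by
    have hw' : f ((l ^ 2 * l ^ 2 * l ^ 2) • (p + r)) = β := by
      have e : l ^ 2 * l ^ 2 * l ^ 2 = 1 := by linear_combination (l ^ 4 - l ^ 3 + l - 1) * hll
      rw [e, one_smul, hf', hfs, hft, hb]; ring
    have e : l ^ 2 * l ^ 2 * l ^ 2 = l * l ^ 2 := by linear_combination (l ^ 4 - l ^ 3 + l - 1) * hll - (l - 1) * hll
    rcases hl with rfl | rfl
    · simp only [z, smul_smul]; rw [← e]; exact hw'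
    · have e' : f ((w + 1) • z) = f (w • z) := by rw [hline, one_smul, hfz, add_zero]
      rw [← e']; simp only [z, smul_smul]; rw [← e]; exact hw'
  have hcase : ∀ v : W, f v = 0 → b v z = l ^ 2 * β → f (w • v) = 0 ∨ f (w • v) = (l + 1) * β := by
    intro v hv hbv
    obtain ⟨k, hk, hk'⟩ := step v z (l ^ 2 * β) hv hfz hbv (mul_ne_zero (pow_ne_zero _ hl0) hβ)
    rw [hwz] at hk'
    have hkl : k = l ∨ k = l + 1 := by
      rcases hl with rfl | rfl <;> rcases hk with rfl | rfl
      · exact Or.inl rfl
      · exact Or.inr rfl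
      · exact Or.inr (by linear_combination -h2)
      · exact Or.inl rfl
    rcases hkl with rfl | rfl
    · left; linear_combination hk' + β * (k - 1) * hll
    · right; linear_combination hk' + β * l * hll - β * (l + 1) * h2
  have hrp : b r p = β := by
    have e1 := hf' r p
    rw [add_comm r p, hf' p r, hb] at e1
    linear_combination -e1
  have c1 := hcase p hfs (by simp only [z]; rw [hs, hadd, hbself, hb, zero_add])
  have c2 := hcase r hft (by simp only [z]; rw [hs, hadd, hbself, hrp, add_zero])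
  rcases c1 with e | e <;> rcases c2 with e' | e' <;> rw [e, e'] at hD
  · exact mul_ne_zero hl0 hβ (by linear_combination -hD)
  · exact hβ (by linear_combination hD)
  · exact hβ (by linear_combination hD)
  · exact mul_ne_zero hl0 hβ (by linear_combination -hD + (l + 1) * β * h2)

end CfsgLib.MinIndexPSp
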