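import Cfsg.Agent.Classical.Symp.Card
import Cfsg.Agent.Classical.Symp.Simple

/-!
Elements `qEl e w z : x ↦ x + B e x • w + (z B e x + B w x) • e` of the symplectic group, the radical of the
stabiliser of a point, and coordinates on that stabiliser.
-/

set_option autoImplicit false
set_option linter.unusedSectionVars false

namespace CfsgLib.MinIndexPSp

open Matrix CfsgLib.Classical.Symp

section Gen

variable {m : ℕ} {F : Type*} [Field F]

local notation "B" => Cfsg.sympForm m F
local notation "Mat" => Matrix (Fin m ⊕ Fin m) (Fin m ⊕ Fin m) F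
local notation "V" => (Fin m ⊕ Fin m → F)
local notation "G" => Matrix.symplecticGroup (Fin m) F

/-- The linear map underlying `qEl`. -/
def qLin (e w : V) (z : F) : V →ₗ[F] V where
  toFun x := x + B e x • w + (z * B e x + B w x) • e
  map_add' x y := by simp only [form_add_right]; module
  map_smul' c x := by simp only [form_smul_right, RingHom.id_apply]; module

/-- The element of the radical of the stabiliser of `e` given by `w ⊥ e` and `z`. -/
noncomputable def qEl (e w : V) (z : F) : G :=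
  haveI := _root_.Classical.propDecidable (B e w = 0)
  if h : B e w = 0 then
    ⟨LinearMap.toMatrix' (qLin e w z), by
      rw [mem_symplecticGroup_iff_form]
      intro x y
      rw [LinearMap.toMatrix'_mulVec, LinearMap.toMatrix'_mulVec]
      simp only [qLin, LinearMap.coe_mk, AddHom.coe_mk, form_add_left, form_add_right, form_smul_left,
        form_smul_right, form_self, h, form_eq_zero_comm.mp h]
      rw [form_swap x e, form_swap x w]
      ring⟩
  else 1

theorem qEl_mulVec {e w : V} (h : B e w = 0) (z : F) (x : V) :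
    (qEl e w z : Mat) *ᵥ x = x + B e x • w + (z * B e x + B w x) • e := by
  rw [qEl, dif_pos h]
  exact LinearMap.toMatrix'_mulVec _ _

theorem qEl_mul {e w w' : V} (h : B e w = 0) (h' : B e w' = 0) (z z' : F) :
    qEl e w z * qEl e w' z' = qEl e (w + w') (z + z' + B w w') := by
  refine symp_ext fun x => ?_
  rw [mul_mulVec, qEl_mulVec h, qEl_mulVec h', qEl_mulVec (by rw [form_add_right, h, h', add_zero])]
  simp only [form_add_right, form_add_left, form_smul_right, form_self, h', form_eq_zero_comm.mp h]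
  module

theorem qEl_zero (e : V) : qEl e 0 0 = 1 := by
  refine symp_ext fun x => ?_
  rw [qEl_mulVec (form_zero_right e)]
  simp [form_zero_left]

theorem qEl_inv {e w : V} (h : B e w = 0) (z : F) : (qEl e w z)⁻¹ = qEl e (-w) (-z) := by
  rw [inv_eq_iff_mul_eq_one, qEl_mul h (by rw [form_neg_right, h, neg_zero]), add_neg_cancel]
  rw [add_neg_cancel, form_neg_right, form_self, neg_zero, add_zero, qEl_zero]

theorem qEl_mulVec_self {e w : V} (h : B e w = 0) (z : F) : (qEl e w z : Mat) *ᵥ e = e := by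
  rw [qEl_mulVec h, form_self, form_eq_zero_comm.mp h]
  simp

theorem conj_qEl (g : G) {e w : V} (h : B e w = 0) (z : F) :
    g * qEl e w z * g⁻¹ = qEl ((g : Mat) *ᵥ e) ((g : Mat) *ᵥ w) z := by
  rw [mul_inv_eq_iff_eq_mul]
  refine symp_ext fun x => ?_
  rw [mul_mulVec, mul_mulVec, qEl_mulVec h, qEl_mulVec (by rw [form_mulVec, h]), form_mulVec, form_mulVec,
    mulVec_add, mulVec_add, mulVec_smul, mulVec_smul]

theorem qEl_zero_left (e : V) (z : F) : qEl e 0 z = spT e (-z) := by
  refine symp_ext fun x => ?_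
  rw [qEl_mulVec (form_zero_right e), spT_mulVec, form_zero_left, add_zero, smul_zero, add_zero, form_swap x e]
  module

theorem qEl_add_smul {e w : V} (h : B e w = 0) (t z : F) : qEl e (w + t • e) z = qEl e w (z + 2 * t) := by
  have h' : B e (w + t • e) = 0 := by rw [form_add_right, h, form_smul_right, form_self]; ring
  refine symp_ext fun x => ?_
  rw [qEl_mulVec h', qEl_mulVec h, form_add_left, form_smul_left]
  module

theorem qEl_inj {e w w' : V} {f : V} (hf : B e f = 1) (h : B e w = 0) (h' : B e w' = 0)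
    (hwf : B w f = 0) (hwf' : B w' f = 0) {z z' : F} (heq : qEl e w z = qEl e w' z') : w = w' ∧ z = z' := by
  have h1 := congrArg (fun g : G => (g : Mat) *ᵥ f) heq
  simp only [qEl_mulVec h, qEl_mulVec h', hf, hwf, hwf', one_smul, add_zero, mul_one] at h1
  have h2 := congrArg (fun v => B v f) h1
  simp only [form_add_left, form_smul_left, hwf, hwf', hf, form_self] at h2
  have hz : z = z' := by linear_combination h2
  refine ⟨?_, hz⟩
  rw [hz] at h1
  exact add_left_cancel (add_right_cancel h1)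

end Gen

section Std

variable {n : ℕ} {F : Type*} [Field F]

local notation "Bn" => Cfsg.sympForm n F
local notation "Bs" => Cfsg.sympForm (n + 1) F
local notation "W" => (Fin n ⊕ Fin n → F)
local notation "V" => (Fin (n + 1) ⊕ Fin (n + 1) → F)
local notation "Mn" => Matrix (Fin n ⊕ Fin n) (Fin n ⊕ Fin n) F
local notation "Ms" => Matrix (Fin (n + 1) ⊕ Fin (n + 1)) (Fin (n + 1) ⊕ Fin (n + 1)) F
local notation "Gs" => Matrix.symplecticGroup (Fin (n + 1)) F
local notation "Ln" => Matrix.symplecticGroup (Fin n) F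

/-- The point whose stabiliser is used. -/
def e0 : V := stdE 0

/-- Its partner. -/
def f0 : V := stdF 0

theorem e0_ne : (e0 : V) ≠ 0 := fun e => by simpa [e0, stdE] using congrFun e (Sum.inr 0)

theorem form_e0_f0 : Bs (e0 : V) f0 = 1 := by simp [e0, f0, form_stdE_stdF]

theorem form_e0_innV (w : W) : Bs (e0 : V) (innV w) = 0 := by
  rw [form_eq_zero_comm, e0, form_stdE_right, innV_inl_zero, neg_zero]

theorem form_innV_f0 (w : W) : Bs (innV w) (f0 : V) = 0 := by rw [f0, form_stdF_right, innV_inr_zero]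

theorem form_f0_innV (w : W) : Bs (f0 : V) (innV w) = 0 := form_eq_zero_comm.mp (form_innV_f0 w)

theorem form_innV_e0 (w : W) : Bs (innV w) (e0 : V) = 0 := form_eq_zero_comm.mp (form_e0_innV w)

theorem outV_e0 : outV (e0 : V) = 0 := by funext j; cases j <;> simp [e0, stdE]

theorem outV_f0 : outV (f0 : V) = 0 := by funext j; cases j <;> simp [f0, stdF]

theorem vec_eq (x : V) : x = (Bs (e0 : V) x) • f0 + (Bs x f0) • e0 + innV (outV x) := by
  have h1 : Bs (e0 : V) x = x (Sum.inl 0) := by rw [form_swap, e0, form_stdE_right, neg_neg]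
  have h2 : Bs x (f0 : V) = x (Sum.inr 0) := by rw [f0, form_stdF_right]
  rw [h1, h2]
  exact (vec_decomp x).symm

/-- The element of the radical with coordinates `w`, `z`. -/
noncomputable def qS (w : W) (z : F) : Gs := qEl e0 (innV w) z

/-- `Sp_2n` inside the stabiliser, as a homomorphism. -/
noncomputable def levi : Ln →* Gs := (pairStab n F).subtype.comp pairStabEquiv.toMonoidHom

theorem levi_apply (g : Ln) : (levi g : Gs) = liftSp g := rfl

theorem levi_mulVec_e0 (g : Ln) : (levi g : Ms) *ᵥ e0 = e0 := (liftSp_mem g).1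

theorem levi_mulVec_f0 (g : Ln) : (levi g : Ms) *ᵥ f0 = f0 := (liftSp_mem g).2

theorem levi_mulVec_innV (g : Ln) (u : W) : (levi g : Ms) *ᵥ innV u = innV ((g : Mn) *ᵥ u) := by
  rw [levi_apply, liftSp_mulVec, liftLin_apply, innV_inl_zero, innV_inr_zero, outV_innV]
  simp

theorem qS_mul (w w' : W) (z z' : F) : qS w z * qS w' z' = qS (w + w') (z + z' + Bn w w') := by
  rw [qS, qS, qS, qEl_mul (form_e0_innV w) (form_e0_innV w'), map_add, form_innV]

theorem qS_zero : qS (0 : W) (0 : F) = 1 := by rw [qS, map_zero, qEl_zero]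

theorem qS_inv (w : W) (z : F) : (qS w z)⁻¹ = qS (-w) (-z) := by
  rw [qS, qS, qEl_inv (form_e0_innV w), map_neg]

theorem qS_inj {w w' : W} {z z' : F} (h : qS w z = qS w' z') : w = w' ∧ z = z' := by
  obtain ⟨h1, h2⟩ := qEl_inj form_e0_f0 (form_e0_innV w) (form_e0_innV w') (form_innV_f0 w) (form_innV_f0 w') h
  exact ⟨by rw [← outV_innV (F := F) w, h1, outV_innV], h2⟩

theorem qS_eq_one {w : W} {z : F} : qS w z = 1 ↔ w = 0 ∧ z = 0 :=
  ⟨fun h => qS_inj (h.trans qS_zero.symm), fun ⟨h1, h2⟩ => by rw [h1, h2, qS_zero]⟩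

theorem levi_qS (g : Ln) (w : W) (z : F) : levi g * qS w z = qS ((g : Mn) *ᵥ w) z * levi g := by
  rw [← mul_inv_eq_iff_eq_mul, qS, qS, conj_qEl _ (form_e0_innV w), levi_mulVec_e0, levi_mulVec_innV]

theorem levi_conj_qS (g : Ln) (w : W) (z : F) : levi g * qS w z * (levi g)⁻¹ = qS ((g : Mn) *ᵥ w) z := by
  rw [levi_qS, mul_inv_cancel_right]

theorem qS_levi_mul (w w' : W) (z z' : F) (g g' : Ln) :
    qS w z * levi g * (qS w' z' * levi g') =
      qS (w + (g : Mn) *ᵥ w') (z + z' + Bn w ((g : Mn) *ᵥ w')) * levi (g * g') := by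
  rw [map_mul, ← qS_mul]
  calc qS w z * levi g * (qS w' z' * levi g') = qS w z * (levi g * qS w' z') * levi g' := by group
    _ = _ := by rw [levi_qS]; group

variable (n F) in
/-- The subgroup fixing the line of `e0`. -/
def lineStab : Subgroup Gs where
  carrier := {g | ∃ μ : F, μ ≠ 0 ∧ (g : Ms) *ᵥ e0 = μ • e0}
  one_mem' := ⟨1, one_ne_zero, by simp⟩
  mul_mem' := fun {a b} ⟨μ, hμ, ha⟩ ⟨ν, hν, hb⟩ => ⟨ν * μ, mul_ne_zero hν hμ, by
    rw [mul_mulVec, hb, mulVec_smul, ha, smul_smul]⟩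
  inv_mem' := fun {a} ⟨μ, hμ, ha⟩ => ⟨μ⁻¹, inv_ne_zero hμ, by
    have h := inv_mulVec_cancel a (e0 : Fin (n + 1) ⊕ Fin (n + 1) → F)
    rw [ha, mulVec_smul] at h
    calc _ = μ⁻¹ • μ • (((a⁻¹ : Gs) : Ms) *ᵥ e0) := by rw [smul_smul, inv_mul_cancel₀ hμ, one_smul]
      _ = μ⁻¹ • e0 := by rw [h]⟩

theorem mem_lineStab {g : Gs} : g ∈ lineStab n F ↔ ∃ μ : F, μ ≠ 0 ∧ (g : Ms) *ᵥ e0 = μ • e0 := Iff.rfl

theorem smul_e0_inj {a b : F} (h : a • (e0 : V) = b • e0) : a = b :=
  smul_left_injective F e0_ne h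

/-- The scalar by which an element of `lineStab` acts on `e0`. -/
noncomputable def chiHom : lineStab n F →* Fˣ where
  toFun g := Units.mk0 (mem_lineStab.mp g.2).choose (mem_lineStab.mp g.2).choose_spec.1
  map_one' := by
    refine Units.ext (smul_e0_inj (n := n) ?_)
    rw [Units.val_mk0, ← (mem_lineStab.mp (1 : lineStab n F).2).choose_spec.2]
    simp
  map_mul' a b := by
    refine Units.ext (smul_e0_inj (n := n) ?_)
    rw [Units.val_mk0, ← (mem_lineStab.mp (a * b).2).choose_spec.2, Units.val_mul, Units.val_mk0, Units.val_mk0,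
      Subgroup.coe_mul, mul_mulVec]
    refine (congrArg (fun v => ((a : Gs) : Ms) *ᵥ v) (mem_lineStab.mp b.2).choose_spec.2).trans ?_
    rw [mulVec_smul]
    refine (congrArg (fun v => _ • v) (mem_lineStab.mp a.2).choose_spec.2).trans ?_
    rw [smul_smul, mul_comm]

theorem chiHom_spec (g : lineStab n F) :
    ((g : Gs) : Ms) *ᵥ e0 = (chiHom g : F) • e0 :=
  (mem_lineStab.mp g.2).choose_spec.2

theorem chiHom_eq {g : lineStab n F} {μ : F} (h : ((g : Gs) : Ms) *ᵥ e0 = μ • e0) : (chiHom g : F) = μ :=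
  smul_e0_inj (by rw [← chiHom_spec, h])

theorem form_e0_apply {g : Gs} (hg : g ∈ vecStab (e0 : V)) (x : V) : Bs (e0 : V) ((g : Ms) *ᵥ x) = Bs (e0 : V) x := by
  conv_lhs => rw [← mem_vecStab.mp hg]
  rw [form_mulVec]

theorem innV_outV {x : V} (h : Bs (e0 : V) x = 0) : innV (outV x) = x - (Bs x f0) • e0 := by
  have h' := vec_eq x
  rw [h, zero_smul, zero_add] at h'
  exact eq_sub_of_add_eq' h'.symm

theorem form_e0_apply_innV {g : Gs} (hg : g ∈ vecStab (e0 : V)) (u : W) : Bs (e0 : V) ((g : Ms) *ᵥ innV u) = 0 := by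
  rw [form_e0_apply hg, form_e0_innV]

theorem form_outV {x y : V} (hx : Bs (e0 : V) x = 0) (hy : Bs (e0 : V) y = 0) : Bn (outV x) (outV y) = Bs x y := by
  rw [← form_innV (m := n), innV_outV hx, innV_outV hy]
  simp only [form_sub_left, form_sub_right, form_smul_left, form_smul_right, form_self, hy,
    form_eq_zero_comm.mp hx]
  ring

/-- The action induced on `e0^⊥ / e0`. -/
noncomputable def piHom : vecStab (e0 : V) →* Ln where
  toFun g := ⟨LinearMap.toMatrix' (outV ∘ₗ Matrix.toLin' ((g : Gs) : Ms) ∘ₗ innV), by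
    rw [mem_symplecticGroup_iff_form]
    intro x y
    simp only [LinearMap.toMatrix'_mulVec, LinearMap.comp_apply, Matrix.toLin'_apply]
    rw [form_outV (form_e0_apply_innV g.2 x) (form_e0_apply_innV g.2 y), form_mulVec, form_innV]⟩
  map_one' := symp_ext fun x => by simp [outV_innV]
  map_mul' a b := symp_ext fun x => by
    simp only [LinearMap.toMatrix'_mulVec, LinearMap.comp_apply, Matrix.toLin'_apply, mul_mulVec, Subgroup.coe_mul]
    rw [innV_outV (form_e0_apply_innV b.2 x), mulVec_sub, mulVec_smul, mem_vecStab.mp a.2, map_sub, map_smul, outV_e0,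
      smul_zero, sub_zero]

theorem piHom_mulVec (g : vecStab (e0 : V)) (x : W) :
    (piHom g : Mn) *ᵥ x = outV (((g : Gs) : Ms) *ᵥ innV x) := by
  show (LinearMap.toMatrix' _) *ᵥ x = _
  simp [LinearMap.toMatrix'_mulVec]

theorem qS_mem_vecStab (w : W) (z : F) : qS w z ∈ vecStab (e0 : V) :=
  qEl_mulVec_self (form_e0_innV w) z

theorem levi_mem_vecStab (g : Ln) : levi g ∈ vecStab (e0 : V) := levi_mulVec_e0 g

theorem qS_levi_mem (w : W) (z : F) (g : Ln) : qS w z * levi g ∈ vecStab (e0 : V) :=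
  Subgroup.mul_mem _ (qS_mem_vecStab w z) (levi_mem_vecStab g)

theorem vecStab_le_lineStab : vecStab (e0 : V) ≤ lineStab n F := fun _ hg =>
  ⟨1, one_ne_zero, by rw [one_smul]; exact hg⟩

theorem eq_one_of_pair {g : Gs} (he : (g : Ms) *ᵥ e0 = e0) (hf : (g : Ms) *ᵥ f0 = f0)
    (hw : ∀ u : W, outV ((g : Ms) *ᵥ innV u) = u) : g = 1 := by
  refine symp_ext fun x => ?_
  have hu : (g : Ms) *ᵥ innV (outV x) = innV (outV x) := by
    rw [pairStab_apply_inn (h := g) ⟨he, hf⟩, hw]
  conv_lhs => rw [vec_eq x, mulVec_add, mulVec_add, mulVec_smul, mulVec_smul, he, hf, hu, ← vec_eq x]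
  simp

/-- Elements fixing `e0` are `qS w z * levi g`. -/
theorem exists_normal_form (k : vecStab (e0 : V)) : ∃ w z, (k : Gs) = qS w z * levi (piHom k) := by
  obtain ⟨w, hw⟩ : ∃ w, w = outV (((k : Gs) : Ms) *ᵥ f0) := ⟨_, rfl⟩
  obtain ⟨z, hz⟩ : ∃ z, z = Bs (((k : Gs) : Ms) *ᵥ f0) f0 := ⟨_, rfl⟩
  refine ⟨w, z, ?_⟩
  have hkf : ((k : Gs) : Ms) *ᵥ f0 = f0 + z • e0 + innV w := by
    conv_lhs => rw [vec_eq (((k : Gs) : Ms) *ᵥ f0)]
    rw [form_e0_apply k.2, form_e0_f0, one_smul, hw, hz]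
  have hq : (qS w z : Gs)⁻¹ * k * (levi (piHom k))⁻¹ = 1 := by
    rw [qS_inv, qS, ← map_inv]
    refine eq_one_of_pair ?_ ?_ ?_
    · rw [mul_mulVec, mul_mulVec, levi_mulVec_e0, mem_vecStab.mp k.2, qEl_mulVec_self (form_e0_innV _)]
    · rw [mul_mulVec, mul_mulVec, levi_mulVec_f0, hkf, qEl_mulVec (form_e0_innV _)]
      simp only [map_neg, form_add_right, form_smul_right, form_self, form_neg_left, form_e0_f0, form_e0_innV,
        form_innV_f0, form_innV_e0]
      module
    · intro u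
      rw [mul_mulVec, mul_mulVec, levi_mulVec_innV, qEl_mulVec (form_e0_innV _), form_e0_apply k.2,
        form_e0_innV, zero_smul, add_zero, map_add, map_smul, outV_e0, smul_zero, add_zero, ← piHom_mulVec,
        ← mul_mulVec, mul_inv_cancel]
      simp
  rw [mul_inv_eq_one, inv_mul_eq_iff_eq_mul] at hq
  exact hq

theorem piHom_qS_levi (w : W) (z : F) (g : Ln) : piHom ⟨qS w z * levi g, qS_levi_mem w z g⟩ = g := by
  refine symp_ext fun x => ?_
  rw [piHom_mulVec, mul_mulVec, levi_mulVec_innV, qS, qEl_mulVec (form_e0_innV _), form_e0_innV, zero_smul,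
    add_zero, map_add, map_smul, outV_e0, smul_zero, add_zero, outV_innV]

theorem qS_levi_inj {w w' : W} {z z' : F} {g g' : Ln} (h : qS w z * levi g = qS w' z' * levi g') :
    w = w' ∧ z = z' ∧ g = g' := by
  have hg : g = g' := by
    rw [← piHom_qS_levi w z g, ← piHom_qS_levi w' z' g']
    exact congrArg _ (Subtype.ext h)
  subst hg
  obtain ⟨h1, h2⟩ := qS_inj (mul_right_cancel h)
  exact ⟨h1, h2, rfl⟩

/-- The torus element `e0 ↦ μ e0`, `f0 ↦ μ⁻¹ f0`. -/
noncomputable def hTor (μ : Fˣ) : Gs :=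
  ⟨LinearMap.toMatrix' ((LinearMap.proj (Sum.inl 0)).smulRight ((μ⁻¹ : Fˣ) • (f0 : V)) +
      (LinearMap.proj (Sum.inr 0)).smulRight (μ • (e0 : V)) + innV ∘ₗ outV), by
    rw [mem_symplecticGroup_iff_form]
    intro x y
    simp only [LinearMap.toMatrix'_mulVec, LinearMap.add_apply, LinearMap.smulRight_apply, LinearMap.proj_apply,
      LinearMap.comp_apply, Units.smul_def, form_add_left, form_add_right, form_smul_left, form_smul_right, form_self,
      form_e0_f0, form_e0_innV, form_f0_innV, form_innV_e0, form_innV_f0, form_innV, form_swap (f0 : V) e0]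
    rw [form_succ x y]
    have := μ.ne_zero
    simp only [Units.val_inv_eq_inv_val]
    field_simp
    ring⟩

theorem hTor_mulVec (μ : Fˣ) (x : V) :
    ((hTor μ : Gs) : Ms) *ᵥ x = x (Sum.inl 0) • ((μ⁻¹ : Fˣ) : F) • f0 + x (Sum.inr 0) • (μ : F) • e0 + innV (outV x) := by
  show (LinearMap.toMatrix' _) *ᵥ x = _
  rw [LinearMap.toMatrix'_mulVec]
  simp [Units.smul_def]

theorem hTor_mulVec_e0 (μ : Fˣ) : ((hTor μ : Gs) : Ms) *ᵥ e0 = (μ : F) • e0 := by
  rw [hTor_mulVec, outV_e0]; simp [e0, stdE]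

theorem hTor_mulVec_f0 (μ : Fˣ) : ((hTor μ : Gs) : Ms) *ᵥ f0 = ((μ⁻¹ : Fˣ) : F) • f0 := by
  rw [hTor_mulVec, outV_f0]; simp [f0, stdF]

theorem hTor_mulVec_innV (μ : Fˣ) (u : W) : ((hTor μ : Gs) : Ms) *ᵥ innV u = innV u := by
  rw [hTor_mulVec, outV_innV]; simp

theorem hTor_mem (μ : Fˣ) : (hTor μ : Gs) ∈ lineStab n F := ⟨μ, μ.ne_zero, hTor_mulVec_e0 μ⟩

theorem hTor_conj_qS (μ : Fˣ) (w : W) (z : F) :
    hTor μ * qS w z * (hTor μ)⁻¹ = qS ((μ : F) • w) ((μ : F) ^ 2 * z) := by
  rw [qS, qS, conj_qEl _ (form_e0_innV w), hTor_mulVec_e0, hTor_mulVec_innV, map_smul]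
  refine symp_ext fun x => ?_
  rw [qEl_mulVec (by rw [form_smul_left, form_e0_innV, mul_zero]),
    qEl_mulVec (by rw [form_smul_right, form_e0_innV, mul_zero])]
  simp only [form_smul_left]
  module

theorem hTor_levi (μ : Fˣ) (g : Ln) : hTor μ * levi g = levi g * hTor μ := by
  refine symp_ext fun x => ?_
  rw [mul_mulVec, mul_mulVec]
  conv_lhs => rw [vec_eq x]
  conv_rhs => rw [vec_eq x]
  simp only [mulVec_add, mulVec_smul, levi_mulVec_e0, levi_mulVec_f0, levi_mulVec_innV, hTor_mulVec_e0,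
    hTor_mulVec_f0, hTor_mulVec_innV]

theorem chiHom_surjective : Function.Surjective (chiHom (n := n) (F := F)) := fun μ =>
  ⟨⟨hTor μ, hTor_mem μ⟩, Units.ext (chiHom_eq (hTor_mulVec_e0 μ))⟩

theorem chiHom_ker : (chiHom (n := n) (F := F)).ker = (vecStab (e0 : V)).subgroupOf (lineStab n F) := by
  ext g
  rw [MonoidHom.mem_ker, Subgroup.mem_subgroupOf, mem_vecStab]
  constructor
  · intro h; rw [chiHom_spec, h, Units.val_one, one_smul]
  · intro h; exact Units.ext (chiHom_eq (by rw [h, Units.val_one, one_smul]))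

theorem card_lineStab [Fintype F] :
    Nat.card (lineStab n F) = (Fintype.card F - 1) * (Fintype.card F ^ (2 * n + 1) * Nat.card Ln) := by
  classical
  rw [← chiHom.ker.card_mul_index, Subgroup.index_ker, MonoidHom.range_eq_top.mpr chiHom_surjective,
    Nat.card_congr Subgroup.topEquiv.toEquiv, Nat.card_eq_fintype_card (α := Fˣ), Fintype.card_units, chiHom_ker,
    Nat.card_congr (Subgroup.subgroupOfEquivOfLe vecStab_le_lineStab).toEquiv, mul_comm]
  exact congrArg _ card_vecStab_succ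

theorem index_lineStab_mul [Fintype F] :
    (lineStab n F).index * (Fintype.card F - 1) = Fintype.card F ^ (2 * (n + 1)) - 1 := by
  have h := (lineStab n F).card_mul_index
  rw [card_lineStab, card_eq_mul_card_vecStab (e0_ne (n := n) (F := F)), e0, card_vecStab_succ] at h
  have hL : 0 < Fintype.card F ^ (2 * n + 1) * Nat.card Ln := Nat.mul_pos (pow_pos Fintype.card_pos _) Nat.card_pos
  refine Nat.eq_of_mul_eq_mul_right hL (Eq.trans ?_ h)
  ring

end Std

end CfsgLib.MinIndexPSp
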