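import Cfsg.Agent.MinIndexPSp.Root

/-!
The trace of a subgroup on the stabiliser of the point `e0`: scalars, the image in `Sp_2n`, the radical and the
root group, and the counting inequality for a subgroup of index below the number of points.
-/

set_option autoImplicit false
set_option linter.unusedSectionVars false

open scoped Classical

namespace CfsgLib.MinIndexPSp

open Matrix CfsgLib.Classical.Symp

variable {n : ℕ} {F : Type*} [Field F] [Fintype F]

local notation "Bn" => Cfsg.sympForm n F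
local notation "W" => (Fin n ⊕ Fin n → F)
local notation "V" => (Fin (n + 1) ⊕ Fin (n + 1) → F)
local notation "Mn" => Matrix (Fin n ⊕ Fin n) (Fin n ⊕ Fin n) F
local notation "Ms" => Matrix (Fin (n + 1) ⊕ Fin (n + 1)) (Fin (n + 1) ⊕ Fin (n + 1)) F
local notation "Gs" => Matrix.symplecticGroup (Fin (n + 1)) F
local notation "Ln" => Matrix.symplecticGroup (Fin n) F
local notation "q" => Fintype.card F

/-- No full root group lies in `K`. -/
def NoRoot {m : ℕ} (K : Subgroup (Matrix.symplecticGroup (Fin m) F)) : Prop :=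
  ∀ v, v ≠ 0 → ¬ RootIn K v

/-- The scalars on `e0`. -/
noncomputable def scal (K : Subgroup Gs) : Subgroup Fˣ := (K.subgroupOf (lineStab n F)).map chiHom

/-- The image in `Sp_2n`. -/
noncomputable def kbar (K : Subgroup Gs) : Subgroup Ln := (K.subgroupOf (vecStab e0)).map piHom

/-- The image of the radical. -/
def rbar (K : Subgroup Gs) : AddSubgroup W where
  carrier := {w | ∃ z : F, qS w z ∈ K}
  add_mem' := fun {a b} ⟨z, hz⟩ ⟨z', hz'⟩ => ⟨_, qS_mul a b z z' ▸ K.mul_mem hz hz'⟩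
  zero_mem' := ⟨0, by rw [qS_zero]; exact K.one_mem⟩
  neg_mem' := fun {a} ⟨z, hz⟩ => ⟨-z, qS_inv a z ▸ K.inv_mem hz⟩

/-- The trace on the root group of `e0`. -/
def aSub (K : Subgroup Gs) : AddSubgroup F where
  carrier := {z | qS (0 : W) z ∈ K}
  add_mem' := fun {a b} ha hb => by
    have := K.mul_mem ha hb
    rwa [qS_mul, add_zero, form_zero_left, add_zero] at this
  zero_mem' := by show qS (0 : W) 0 ∈ K; rw [qS_zero]; exact K.one_mem
  neg_mem' := fun {a} ha => by
    have := K.inv_mem ha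
    rwa [qS_inv, neg_zero] at this

theorem mem_rbar {K : Subgroup Gs} {w : W} : w ∈ rbar K ↔ ∃ z : F, qS w z ∈ K := Iff.rfl

theorem mem_aSub {K : Subgroup Gs} {z : F} : z ∈ aSub K ↔ qS (0 : W) z ∈ K := Iff.rfl

theorem mem_kbar {K : Subgroup Gs} {g : Ln} : g ∈ kbar K ↔ ∃ (w : W) (z : F), qS w z * levi g ∈ K := by
  constructor
  · rintro ⟨k, hk, rfl⟩
    obtain ⟨w, z, h⟩ := exists_normal_form k
    exact ⟨w, z, h ▸ hk⟩
  · rintro ⟨w, z, h⟩
    exact ⟨⟨_, qS_levi_mem w z g⟩, h, piHom_qS_levi w z g⟩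

theorem sub_mem_aSub {K : Subgroup Gs} {w : W} {z z' : F} (h : qS w z ∈ K) (h' : qS w z' ∈ K) : z - z' ∈ aSub K := by
  have := K.mul_mem h (K.inv_mem h')
  rw [qS_inv, qS_mul, add_neg_cancel, form_neg_right, form_self, neg_zero, add_zero, ← sub_eq_add_neg] at this
  exact this

theorem qS_add_aSub {K : Subgroup Gs} {w : W} {z a : F} (h : qS w z ∈ K) (ha : a ∈ aSub K) : qS w (z + a) ∈ K := by
  have := K.mul_mem h (mem_aSub.mp ha)
  rwa [qS_mul, add_zero, form_zero_right, add_zero] at this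

theorem aSub_ne_top {K : Subgroup Gs} (h : NoRoot K) : aSub K ≠ ⊤ := by
  intro e
  refine h e0 e0_ne fun c => ?_
  have hc : -c ∈ aSub K := e ▸ trivial
  rwa [mem_aSub, qS, map_zero, qEl_zero_left, neg_neg] at hc

theorem sq_mul_mem_aSub {K : Subgroup Gs} {μ : Fˣ} (hμ : μ ∈ scal K) {a : F} (ha : a ∈ aSub K) :
    (μ : F) ^ 2 * a ∈ aSub K := by
  obtain ⟨k, hk, rfl⟩ := hμ
  have h := K.mul_mem (K.mul_mem hk (mem_aSub.mp ha)) (K.inv_mem hk)
  rw [mem_aSub]
  simp only [qS, map_zero, qEl_zero_left] at h ⊢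
  rw [Subgroup.coe_subtype, conj_spT, chiHom_spec, spT_smul, mul_neg] at h
  exact h

theorem conj_qS_mem {K : Subgroup Gs} {w0 r : W} {z0 z : F} {g : Ln} (hk : qS w0 z0 * levi g ∈ K)
    (hr : qS r z ∈ K) : qS ((g : Mn) *ᵥ r) (z + 2 * Bn w0 ((g : Mn) *ᵥ r)) ∈ K := by
  have h := K.mul_mem (K.mul_mem hk hr) (K.inv_mem hk)
  rw [_root_.mul_inv_rev, show qS w0 z0 * levi g * qS r z * ((levi g)⁻¹ * (qS w0 z0)⁻¹) =
    qS w0 z0 * (levi g * qS r z * (levi g)⁻¹) * (qS w0 z0)⁻¹ by group, levi_conj_qS, qS_mul, qS_inv, qS_mul,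
    add_neg_cancel_comm, form_neg_right, form_add_left, form_self] at h
  rw [form_swap ((g : Mn) *ᵥ r) w0] at h
  convert h using 2
  ring

theorem kbar_rbar {K : Subgroup Gs} {g : Ln} (hg : g ∈ kbar K) {r : W} (hr : r ∈ rbar K) :
    (g : Mn) *ᵥ r ∈ rbar K := by
  obtain ⟨w0, z0, hk⟩ := mem_kbar.mp hg
  obtain ⟨z, hz⟩ := mem_rbar.mp hr
  exact ⟨_, conj_qS_mem hk hz⟩

theorem two_form_mem {K : Subgroup Gs} {r s : W} (hr : r ∈ rbar K) (hs : s ∈ rbar K) :
    2 * Bn r s ∈ aSub K := by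
  obtain ⟨z, hz⟩ := mem_rbar.mp hr
  obtain ⟨z', hz'⟩ := mem_rbar.mp hs
  have h := sub_mem_aSub (qS_mul r s z z' ▸ K.mul_mem hz hz')
    ((add_comm s r) ▸ qS_mul s r z' z ▸ K.mul_mem hz' hz)
  rw [form_swap s r] at h
  convert h using 1
  ring

theorem form_mem {K : Subgroup Gs} (h2 : (2 : F) ≠ 0) {r s : W} (hr : r ∈ rbar K) (hs : s ∈ rbar K) :
    Bn r s ∈ aSub K := by
  have h := two_form_mem hr hs
  obtain ⟨p, hp⟩ := CharP.exists F
  obtain ⟨hpp, -⟩ := FiniteField.card F p |>.choose_spec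
  have hodd : Odd p := hpp.odd_of_ne_two fun e => h2 (by
    subst e; exact_mod_cast CharP.cast_eq_zero F 2)
  obtain ⟨k, hk⟩ := hodd
  have e : Bn r s = (k + 1) • (2 * Bn r s) := by
    have hz : ((p : ℕ) : F) = 0 := CharP.cast_eq_zero F p
    rw [hk] at hz
    push_cast at hz
    rw [nsmul_eq_mul]
    push_cast
    linear_combination -(Bn r s) * hz
  rw [e]; exact AddSubgroup.nsmul_mem _ h _

theorem card_W : Nat.card W = q ^ (2 * n) := card_vec

theorem card_map_mul_ker {G H : Type*} [Group G] [Group H] (f : G →* H) (S : Subgroup G) :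
    Nat.card S = Nat.card (S.map f) * Nat.card (f.comp S.subtype).ker := by
  rw [← (f.comp S.subtype).ker.card_mul_index, Subgroup.index_ker, MonoidHom.range_comp, Subgroup.range_subtype,
    mul_comm]

theorem card_ker_chi_le (K : Subgroup Gs) :
    Nat.card ((chiHom (n := n) (F := F)).comp (K.subgroupOf (lineStab n F)).subtype).ker ≤
      Nat.card (K.subgroupOf (vecStab (e0 : V))) := by
  have key : ∀ k : ((chiHom (n := n) (F := F)).comp (K.subgroupOf (lineStab n F)).subtype).ker,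
      ((k.1.1 : Gs) : Ms) *ᵥ e0 = e0 := fun k => by
    have hk : chiHom k.1.1 = 1 := k.2
    rw [chiHom_spec, hk, Units.val_one, one_smul]
  refine Nat.card_le_card_of_injective
    (fun k => (⟨⟨(k.1.1 : Gs), mem_vecStab.mpr (key k)⟩, Subgroup.mem_subgroupOf.mpr
      (Subgroup.mem_subgroupOf.mp k.1.2)⟩ : K.subgroupOf (vecStab (e0 : V)))) fun a b h => ?_
  exact Subtype.ext (Subtype.ext (Subtype.ext (congrArg (fun p => p.1.1) h)))

theorem card_ker_pi_le (K : Subgroup Gs) :
    Nat.card ((piHom (n := n) (F := F)).comp (K.subgroupOf (vecStab (e0 : V))).subtype).ker ≤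
      Nat.card (rbar K) * Nat.card (aSub K) := by
  rw [← Nat.card_prod]
  have hnf : ∀ k : ((piHom (n := n) (F := F)).comp (K.subgroupOf (vecStab (e0 : V))).subtype).ker,
      ∃ (w : W) (z : F), (k.1.1 : Gs) = qS w z := by
    intro k
    obtain ⟨w, z, h⟩ := exists_normal_form k.1.1
    have hk := k.2
    rw [MonoidHom.mem_ker, MonoidHom.comp_apply, Subgroup.coe_subtype] at hk
    rw [hk, map_one, mul_one] at h
    exact ⟨w, z, h⟩
  choose w z hwz using hnf
  have hK : ∀ k, qS (w k) (z k) ∈ K := fun k => hwz k ▸ Subgroup.mem_subgroupOf.mp k.1.2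
  have hr : ∀ k, w k ∈ rbar K := fun k => ⟨z k, hK k⟩
  choose zz hzz using fun r : rbar K => mem_rbar.mp r.2
  refine Nat.card_le_card_of_injective
    (fun k => ((⟨w k, hr k⟩ : rbar K), (⟨z k - zz ⟨w k, hr k⟩, sub_mem_aSub (w := w k) (hK k) (hzz ⟨w k, hr k⟩)⟩ : aSub K))) ?_
  intro a b h
  have e1 : w a = w b := congrArg (fun p => p.1.1) h
  have e2 : z a - zz ⟨w a, hr a⟩ = z b - zz ⟨w b, hr b⟩ := congrArg (fun p => p.2.1) h
  have e3 : (⟨w a, hr a⟩ : rbar K) = ⟨w b, hr b⟩ := Subtype.ext e1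
  rw [e3, sub_left_inj] at e2
  refine Subtype.ext (Subtype.ext (Subtype.ext ?_))
  rw [hwz, hwz, e1, e2]

/-- Counting the stabiliser of the point inside `K`. -/
theorem card_inf_lineStab_le (K : Subgroup Gs) :
    Nat.card (K.subgroupOf (lineStab n F)) ≤
      Nat.card (scal K) * (Nat.card (kbar K) * (Nat.card (rbar K) * Nat.card (aSub K))) := by
  rw [scal, kbar, card_map_mul_ker (chiHom (n := n) (F := F))]
  refine Nat.mul_le_mul_left _ ((card_ker_chi_le K).trans ?_)
  rw [card_map_mul_ker (piHom (n := n) (F := F))]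
  exact Nat.mul_le_mul_left _ (card_ker_pi_le K)

theorem card_lineStab_le (K : Subgroup Gs) :
    Nat.card (lineStab n F) ≤ K.index * Nat.card (K.subgroupOf (lineStab n F)) := by
  rw [Subgroup.card_eq_card_quotient_mul_card_subgroup (K.subgroupOf (lineStab n F))]
  refine Nat.mul_le_mul_right _ ?_
  refine Nat.card_le_card_of_injective (Quotient.lift (fun p : lineStab n F => ((p : Gs) : Gs ⧸ K))
    fun a b hab => QuotientGroup.eq.mpr (Subgroup.mem_subgroupOf.mp
      (QuotientGroup.leftRel_apply.mp (show QuotientGroup.leftRel (K.subgroupOf (lineStab n F)) a b from hab)))) ?_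
  intro a b
  induction a using QuotientGroup.induction_on with
  | _ a =>
    induction b using QuotientGroup.induction_on with
    | _ b =>
      intro h
      exact QuotientGroup.eq.mpr (Subgroup.mem_subgroupOf.mpr (QuotientGroup.eq.mp h))

/-- The counting inequality that every case contradicts. -/
theorem count_lt (K : Subgroup Gs) (h : K.index < pts q (2 * (n + 1))) :
    (q - 1) * q * ((kbar K).index * (rbar K).index) <
      Nat.card (scal K) * Nat.card (aSub K) * pts q (2 * (n + 1)) := by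
  have h1 := (card_lineStab_le K).trans (Nat.mul_le_mul_left _ (card_inf_lineStab_le K))
  rw [card_lineStab, ← (kbar K).card_mul_index, pow_succ', ← card_W (n := n), ← (rbar K).card_mul_index] at h1
  have hpos : 0 < Nat.card (kbar K) * Nat.card (rbar K) := Nat.mul_pos Nat.card_pos Nat.card_pos
  have hγ : 0 < Nat.card (scal K) * Nat.card (aSub K) := Nat.mul_pos Nat.card_pos Nat.card_pos
  refine lt_of_le_of_lt (Nat.le_of_mul_le_mul_right (c := Nat.card (kbar K) * Nat.card (rbar K)) ?_ hpos)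
    (Nat.mul_lt_mul_of_pos_left h hγ)
  calc (q - 1) * q * ((kbar K).index * (rbar K).index) * (Nat.card (kbar K) * Nat.card (rbar K))
      = (q - 1) * (q * (Nat.card (rbar K) * (rbar K).index) * (Nat.card (kbar K) * (kbar K).index)) := by ring
    _ ≤ _ := h1
    _ = Nat.card (scal K) * Nat.card (aSub K) * K.index * (Nat.card (kbar K) * Nat.card (rbar K)) := by ring

theorem count_false (K : Subgroup Gs) (h : K.index < pts q (2 * (n + 1))) {Φ : ℕ}
    (hΦ : Nat.card (scal K) * Nat.card (aSub K) * Φ ≤ (q - 1) * q)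
    (hN : pts q (2 * (n + 1)) ≤ Φ * ((kbar K).index * (rbar K).index)) : False := by
  refine lt_irrefl _ ((count_lt K h).trans_le ?_)
  calc Nat.card (scal K) * Nat.card (aSub K) * pts q (2 * (n + 1))
      ≤ Nat.card (scal K) * Nat.card (aSub K) * (Φ * ((kbar K).index * (rbar K).index)) := Nat.mul_le_mul_left _ hN
    _ = Nat.card (scal K) * Nat.card (aSub K) * Φ * ((kbar K).index * (rbar K).index) := by ring
    _ ≤ _ := Nat.mul_le_mul_right _ hΦ

end CfsgLib.MinIndexPSp
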