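import Cfsg.Agent.MinIndexPSp.Level
import Cfsg.Agent.MinIndexPSp.Arith

/-!
Conjugates of a subgroup, lifts to `Sp_2n` of elements of the image, and the exclusion of a full radical image in
characteristic two.
-/

set_option autoImplicit false
set_option linter.unusedSectionVars false

open scoped Classical

namespace CfsgLib.MinIndexPSp

open Matrix CfsgLib.Classical.Symp

section Gen

variable {m : ℕ} {F : Type*} [Field F]

local notation "Mat" => Matrix (Fin m ⊕ Fin m) (Fin m ⊕ Fin m) F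
local notation "G" => Matrix.symplecticGroup (Fin m) F

/-- The conjugate `a K a⁻¹`. -/
noncomputable def conjSub (a : G) (K : Subgroup G) : Subgroup G := K.map (MulAut.conj a).toMonoidHom

theorem mem_conjSub {a : G} {K : Subgroup G} {x : G} : x ∈ conjSub a K ↔ a⁻¹ * x * a ∈ K := by
  rw [conjSub, Subgroup.mem_map_equiv, MulAut.conj_symm_apply]

theorem conj_mem_conjSub {a : G} {K : Subgroup G} {x : G} (h : x ∈ K) : a * x * a⁻¹ ∈ conjSub a K := by
  rw [mem_conjSub]; simpa [mul_assoc] using h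

theorem index_conjSub (a : G) (K : Subgroup G) : (conjSub a K).index = K.index :=
  Subgroup.index_map_equiv K (MulAut.conj a)

theorem NoRoot.conjSub {a : G} {K : Subgroup G} (h : NoRoot K) : NoRoot (conjSub a K) := by
  intro v hv hr
  refine h _ (mulVec_ne_zero a⁻¹ hv) fun c => ?_
  have := mem_conjSub.mp (hr c)
  rwa [← conj_spT, inv_inv]

theorem mem_of_nsmul_mem [Fintype F] {A : AddSubgroup F} {r : ℕ} (hr : (r : F) ≠ 0) {z : F}
    (h : (r : F) * z ∈ A) : z ∈ A := by
  obtain ⟨p, hp⟩ := CharP.exists F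
  have hpp : p.Prime := CharP.char_is_prime F p
  have hco : Nat.Coprime r p := Nat.Coprime.symm ((hpp.coprime_iff_not_dvd).mpr fun hd =>
    hr ((CharP.cast_eq_zero_iff F p r).mpr hd))
  have hb := Nat.gcd_eq_gcd_ab r p
  rw [hco.gcd_eq_one] at hb
  have hb' : (1 : F) = (r : F) * (Nat.gcdA r p : ℤ) + (p : F) * (Nat.gcdB r p : ℤ) := by
    exact_mod_cast congrArg (fun x : ℤ => (x : F)) hb
  rw [CharP.cast_eq_zero F p, zero_mul, add_zero] at hb'
  have e : ((Nat.gcdA r p : ℤ) : F) * ((r : F) * z) = z := by linear_combination -z * hb'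
  rw [← e, ← zsmul_eq_mul]
  exact A.zsmul_mem h _

theorem commutator_of_central {H : Type*} [Group H] {a b x y : H} (hab : Commute a b) (hax : Commute a x)
    (hay : Commute a y) (hbx : Commute b x) (hby : Commute b y) :
    a * x * (b * y) * (a * x)⁻¹ * (b * y)⁻¹ = x * y * x⁻¹ * y⁻¹ := by
  have hc : Commute a (b * (x * y * x⁻¹)) := hab.mul_right ((hax.mul_right hay).mul_right hax.inv_right)
  have hd : Commute b (x * y * x⁻¹ * y⁻¹) := ((hbx.mul_right hby).mul_right hbx.inv_right).mul_right hby.inv_right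
  calc a * x * (b * y) * (a * x)⁻¹ * (b * y)⁻¹
      = a * ((x * b) * y * x⁻¹) * a⁻¹ * (y⁻¹ * b⁻¹) := by group
    _ = a * (b * (x * y * x⁻¹)) * a⁻¹ * (y⁻¹ * b⁻¹) := by rw [← hbx.eq]; group
    _ = b * (x * y * x⁻¹) * a * a⁻¹ * (y⁻¹ * b⁻¹) := by rw [hc.eq]
    _ = b * (x * y * x⁻¹ * y⁻¹) * b⁻¹ := by group
    _ = _ := by rw [hd.eq, mul_inv_cancel_right]

end Gen

section Std

variable {n : ℕ} {F : Type*} [Field F] [Fintype F]

local notation "Bn" => Cfsg.sympForm n F
local notation "W" => (Fin n ⊕ Fin n → F)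
local notation "V" => (Fin (n + 1) ⊕ Fin (n + 1) → F)
local notation "Mn" => Matrix (Fin n ⊕ Fin n) (Fin n ⊕ Fin n) F
local notation "Ms" => Matrix (Fin (n + 1) ⊕ Fin (n + 1)) (Fin (n + 1) ⊕ Fin (n + 1)) F
local notation "Gs" => Matrix.symplecticGroup (Fin (n + 1)) F
local notation "Ln" => Matrix.symplecticGroup (Fin n) F
local notation "q" => Fintype.card F

theorem levi_spT (u : W) (c : F) : levi (spT u c) = spT (innV u : V) c := by
  refine symp_ext fun x => ?_
  have hv := vec_eq x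
  have hx : Cfsg.sympForm (n + 1) F x (innV u) = Bn (outV x) u := by
    conv_lhs => rw [hv]
    simp only [form_add_left, form_smul_left, form_e0_innV, form_f0_innV, form_innV, mul_zero, zero_add]
  rw [spT_mulVec, hx]
  conv_lhs => rw [hv]
  simp only [mulVec_add, mulVec_smul, levi_mulVec_e0, levi_mulVec_f0, levi_mulVec_innV, spT_mulVec, map_add,
    map_smul]
  linear_combination (norm := module) -hv

theorem root_false {K : Subgroup Gs} (h : NoRoot K) {u : W} (hu : u ≠ 0) (hl : ∀ c, levi (spT u c) ∈ K) : False :=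
  h (innV u) (fun e => hu (by rw [← outV_innV (F := F) u, e, map_zero])) fun c => levi_spT u c ▸ hl c

theorem qS_conj (x w : W) (z : F) : qS x 0 * qS w z * (qS x 0)⁻¹ = qS w (z + 2 * Bn x w) := by
  rw [qS_inv, qS_mul, qS_mul, add_neg_cancel_comm, form_neg_right, form_add_left, form_self, form_swap w x]
  congr 1
  ring

theorem kbar_conjSub (x : W) (K : Subgroup Gs) : kbar (conjSub (qS x 0) K) = kbar K := by
  have key : ∀ (x : W) (K : Subgroup Gs), kbar K ≤ kbar (conjSub (qS x 0) K) := by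
    intro x K g hg
    obtain ⟨w, z, h⟩ := mem_kbar.mp hg
    have h' := conj_mem_conjSub (a := qS x 0) h
    rw [show qS x 0 * (qS w z * levi g) * (qS x 0)⁻¹ = qS x 0 * qS w z * (levi g * (qS x 0)⁻¹) by group,
      qS_inv, levi_qS, ← mul_assoc, qS_mul, qS_mul] at h'
    exact mem_kbar.mpr ⟨_, _, h'⟩
  refine le_antisymm ?_ (key x K)
  refine (key (-x) _).trans_eq ?_
  congr 1
  ext g
  rw [mem_conjSub, mem_conjSub, qS_inv, qS_inv, neg_neg, neg_zero]
  rw [show qS x 0 = (qS (-x) (0 : F))⁻¹ by rw [qS_inv, neg_neg, neg_zero]]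
  simp [mul_assoc]

theorem rbar_conjSub (x : W) (K : Subgroup Gs) : rbar (conjSub (qS x 0) K) = rbar K := by
  ext w
  simp only [mem_rbar]
  constructor
  · rintro ⟨z, hz⟩
    have h := mem_conjSub.mp hz
    rw [qS_inv, neg_zero, show qS x (0 : F) = (qS (-x) (0 : F))⁻¹ by rw [qS_inv, neg_neg, neg_zero], qS_conj] at h
    exact ⟨_, h⟩
  · rintro ⟨z, hz⟩
    have h := conj_mem_conjSub (a := qS x 0) hz
    rw [qS_conj] at h
    exact ⟨_, h⟩

theorem levi_comm_qS (g : Ln) (z : F) : Commute (qS (0 : W) z) (levi g) := by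
  show _ = _
  rw [levi_qS, mulVec_zero]

theorem lift_torsion {K : Subgroup Gs} {g : Ln} {z : F} (h : qS (0 : W) z * levi g ∈ K) {r : ℕ}
    (hg : g ^ r = 1) (hr : (r : F) ≠ 0) : levi g ∈ K := by
  have hp : ∀ k : ℕ, qS (0 : W) z ^ k = qS (0 : W) ((k : F) * z) := by
    intro k
    induction k with
    | zero => rw [pow_zero, Nat.cast_zero, zero_mul, qS_zero]
    | succ j ih =>
      rw [pow_succ, ih, qS_mul, add_zero, form_zero_left, add_zero]
      congr 1; push_cast; ring
  have h' := K.pow_mem h r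
  rw [(levi_comm_qS g z).mul_pow, ← map_pow, hg, map_one, mul_one, hp] at h'
  have h'' := K.mul_mem (K.inv_mem (mem_of_nsmul_mem (A := aSub K) hr h' : z ∈ aSub K)) h
  rwa [inv_mul_cancel_left] at h''

theorem lift_commutator {K : Subgroup Gs} {g g' : Ln} {z z' : F} (h : qS (0 : W) z * levi g ∈ K)
    (h' : qS (0 : W) z' * levi g' ∈ K) : levi (g * g' * g⁻¹ * g'⁻¹) ∈ K := by
  have e := K.mul_mem (K.mul_mem (K.mul_mem h h') (K.inv_mem h)) (K.inv_mem h')
  have hz : Commute (qS (0 : W) z) (qS (0 : W) z') := by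
    show _ = _
    rw [qS_mul, qS_mul, form_zero_left, add_comm z z']
  rw [commutator_of_central hz (levi_comm_qS g z) (levi_comm_qS g' z) (levi_comm_qS g z') (levi_comm_qS g' z')] at e
  simpa only [map_mul, map_inv] using e

/-- After conjugating, a fixed-point-free element of coprime order lifts. -/
theorem exists_conj_lift (K : Subgroup Gs) {d : Ln} (hd : d ∈ kbar K) {r : ℕ} (hdr : d ^ r = 1)
    (hr : (r : F) ≠ 0) (hfpf : ∀ x : W, (d : Mn) *ᵥ x = x → x = 0) :
    ∃ x : W, levi d ∈ conjSub (qS x 0) K := by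
  obtain ⟨w, z, h⟩ := mem_kbar.mp hd
  have hsurj : Function.Surjective fun x : W => (d : Mn) *ᵥ x - x := by
    refine Finite.surjective_of_injective fun a b hab => sub_eq_zero.mp (hfpf _ ?_)
    rw [mulVec_sub, ← sub_eq_zero]
    calc _ = ((d : Mn) *ᵥ a - a) - ((d : Mn) *ᵥ b - b) := by abel
      _ = 0 := sub_eq_zero.mpr hab
  obtain ⟨x, hx⟩ := hsurj w
  refine ⟨x, ?_⟩
  have h' := conj_mem_conjSub (a := qS x 0) h
  rw [show qS x 0 * (qS w z * levi d) * (qS x 0)⁻¹ = qS x 0 * qS w z * (levi d * (qS x 0)⁻¹) by group,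
    qS_inv, levi_qS, ← mul_assoc, qS_mul, qS_mul, mulVec_neg] at h'
  simp only at hx
  rw [show x + w + -((d : Mn) *ᵥ x) = 0 by rw [← hx]; abel] at h'
  exact lift_torsion h' hdr hr

/-- An element commuting with a lifted fixed-point-free element lifts up to the root group. -/
theorem lift_comm {K : Subgroup Gs} {d g : Ln} (hd : levi d ∈ K) (hfpf : ∀ x : W, (d : Mn) *ᵥ x = x → x = 0)
    (hg : g ∈ kbar K) (hdg : d * g = g * d) : ∃ z : F, qS (0 : W) z * levi g ∈ K := by
  obtain ⟨w, z, h⟩ := mem_kbar.mp hg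
  have hc := K.mul_mem (K.mul_mem (K.mul_mem hd h) (K.inv_mem hd)) (K.inv_mem h)
  have e : levi d * levi g * (levi d)⁻¹ = levi g := by rw [← map_mul, hdg, map_mul, mul_inv_cancel_right]
  rw [show levi d * (qS w z * levi g) * (levi d)⁻¹ * (qS w z * levi g)⁻¹ =
      levi d * qS w z * (levi d)⁻¹ * (levi d * levi g * (levi d)⁻¹) * (levi g)⁻¹ * (qS w z)⁻¹ by group,
    e, levi_conj_qS, mul_inv_cancel_right, qS_inv, qS_mul] at hc
  have hdw : (d : Mn) *ᵥ w + -w ∈ rbar K := ⟨_, hc⟩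
  have hd' : qS (0 : W) (0 : F) * levi d ∈ K := by rwa [qS_zero, one_mul]
  let φ : rbar K → rbar K := fun r => ⟨(d : Mn) *ᵥ r.1 + -r.1,
    (rbar K).add_mem (kbar_rbar (mem_kbar.mpr ⟨0, 0, hd'⟩) r.2) ((rbar K).neg_mem r.2)⟩
  have hφ : Function.Injective φ := fun a b hab => by
    have hab' : (d : Mn) *ᵥ a.1 + -a.1 = (d : Mn) *ᵥ b.1 + -b.1 := congrArg Subtype.val hab
    refine Subtype.ext (sub_eq_zero.mp (hfpf _ ?_))
    rw [mulVec_sub, ← sub_eq_zero]
    calc _ = ((d : Mn) *ᵥ a.1 + -a.1) - ((d : Mn) *ᵥ b.1 + -b.1) := by abel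
      _ = 0 := sub_eq_zero.mpr hab'
  obtain ⟨r, hr⟩ := Finite.surjective_of_injective hφ ⟨_, hdw⟩
  have hr' : (d : Mn) *ᵥ r.1 + -r.1 = (d : Mn) *ᵥ w + -w := congrArg Subtype.val hr
  have hwr : w = r.1 := by
    refine sub_eq_zero.mp (hfpf _ ?_)
    rw [mulVec_sub, ← sub_eq_zero]
    calc _ = ((d : Mn) *ᵥ w + -w) - ((d : Mn) *ᵥ r.1 + -r.1) := by abel
      _ = 0 := sub_eq_zero.mpr hr'.symm
  obtain ⟨z', hz'⟩ := mem_rbar.mp r.2
  have h' := K.mul_mem (K.inv_mem hz') h
  rw [← mul_assoc, qS_inv, qS_mul, hwr, neg_add_cancel] at h'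
  exact ⟨_, h'⟩

/-- In characteristic two some conjugate has a proper image of the radical. -/
theorem exists_conj_rbar_ne_top (hn : 0 < n) (h2 : (2 : F) = 0) (hq : 4 ≤ q) (K : Subgroup Gs) (hK : NoRoot K) :
    ∃ a : Gs, rbar (conjSub a K) ≠ ⊤ := by
  by_contra hall
  push Not at hall
  have hfull : ∀ w : W, w ∈ rbar (conjSub (1 : Gs) K) := fun w => hall 1 ▸ trivial
  have hmem : ∀ w : W, ∃ z : F, qS w z ∈ K := fun w => by
    obtain ⟨z, hz⟩ := hfull w
    exact ⟨z, by simpa [mem_conjSub] using hz⟩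
  choose f hf using hmem
  obtain ⟨x, y, hxy⟩ : ∃ x y : W, Bn x y = 1 :=
    ⟨stdE ⟨0, hn⟩, stdF ⟨0, hn⟩, by rw [form_stdE_stdF, if_pos rfl]⟩
  have hx0 : x ≠ 0 := fun e => by rw [e, form_zero_left] at hxy; exact zero_ne_one hxy
  obtain ⟨u, a1, a2, c1, c2, hne, hc1, hc2, h1, h2'⟩ := exists_two_values (Cfsg.sympForm n F) form_add_right
    (fun x c y => form_smul_right c x y) form_smul_left h2 hq (aSub K) (aSub_ne_top hK) f (fun p r => by
      rw [show f (p + r) - f p - f r - Bn p r = f (p + r) - (f p + f r + Bn p r) by ring]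
      exact sub_mem_aSub (hf _) (qS_mul p r (f p) (f r) ▸ K.mul_mem (hf p) (hf r))) x y hxy
  obtain ⟨u, hu, a1, a2, k1, k2⟩ : ∃ u : W, u ≠ 0 ∧ ∃ a1 a2 : F, qS (a1 • u) c1 ∈ K ∧ qS (a2 • u) c2 ∈ K := by
    have k1 := qS_add_aSub (hf (a1 • u)) h1
    have k2 := qS_add_aSub (hf (a2 • u)) h2'
    rw [add_sub_cancel] at k1 k2
    by_cases hu : u = 0
    · refine ⟨x, hx0, 0, 0, ?_, ?_⟩
      · rw [zero_smul]; rwa [hu, smul_zero] at k1
      · rw [zero_smul]; rwa [hu, smul_zero] at k2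
    · exact ⟨u, hu, a1, a2, k1, k2⟩
  set p : V := innV u
  have hp : p ≠ 0 := fun e => hu (by rw [← outV_innV (F := F) u]; show outV p = 0; rw [e, map_zero])
  obtain ⟨g, hg⟩ := exists_symp_mulVec_eq hp (e0_ne (n := n) (F := F))
  -- every vector orthogonal to `p` occurs
  have hP : ∀ s : V, Cfsg.sympForm (n + 1) F p s = 0 → ∃ z : F, qEl p s z ∈ K := by
    intro s hs
    have hgs : Cfsg.sympForm (n + 1) F e0 ((g : Ms) *ᵥ s) = 0 := by rw [← hg, form_mulVec, hs]
    obtain ⟨z, hz⟩ := mem_rbar.mp (show outV ((g : Ms) *ᵥ s) ∈ rbar (conjSub g K) from hall g ▸ trivial)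
    have h := mem_conjSub.mp hz
    rw [qS, innV_outV hgs] at h
    have e := conj_qEl g⁻¹ (w := (g : Ms) *ᵥ s - Cfsg.sympForm (n + 1) F ((g : Ms) *ᵥ s) f0 • e0)
      (by rw [form_sub_right, form_smul_right, hgs, form_self]; ring) z
    rw [inv_inv] at e
    rw [e, mulVec_sub, mulVec_smul, inv_mulVec_cancel, ← hg, inv_mulVec_cancel, sub_eq_add_neg, ← neg_smul,
      qEl_add_smul hs] at h
    exact ⟨_, h⟩
  have hep : Cfsg.sympForm (n + 1) F e0 p = 0 := form_e0_innV u
  have hpe : Cfsg.sympForm (n + 1) F p e0 = 0 := form_eq_zero_comm.mp hep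
  -- the elements at `p` obtained by commutation
  have step : ∀ (a c β : F), qS (a • u) c ∈ K → qEl p ((c * β) • e0) (-(c * β ^ 2)) ∈ K := by
    intro a c β hk
    have hs : Cfsg.sympForm (n + 1) F p (β • f0) = 0 := by rw [form_smul_right, form_innV_f0, mul_zero]
    obtain ⟨z, hz⟩ := hP _ hs
    have hkp : (qS (a • u) c : Ms) *ᵥ p = p := by
      rw [qS, qEl_mulVec (form_e0_innV _), hep, map_smul, form_smul_left, form_self]
      simp
    have hks : (qS (a • u) c : Ms) *ᵥ (β • f0 : V) = β • f0 + (c * β) • e0 + (β * a) • p := by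
      rw [qS, qEl_mulVec (form_e0_innV _), map_smul, form_smul_right, form_smul_right, form_e0_f0, form_smul_left,
        form_innV_f0]
      simp only [p]
      module
    have h := K.mul_mem (K.mul_mem (K.mul_mem hk hz) (K.inv_mem hk)) (K.inv_mem hz)
    have hs' : Cfsg.sympForm (n + 1) F p (β • f0 + (c * β) • e0) = 0 := by
      rw [form_add_right, hs, form_smul_right, hpe, mul_zero, add_zero]
    rw [conj_qEl _ hs, hkp, hks, qEl_add_smul hs', qEl_inv hs,
      qEl_mul hs' (by rw [form_neg_right, hs, neg_zero]), h2, zero_mul, add_zero] at h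
    rw [show β • f0 + (c * β) • e0 + -(β • f0 : V) = (c * β) • e0 by abel] at h
    simp only [form_add_left, form_neg_right, form_smul_left, form_smul_right, form_self, form_e0_f0] at h
    convert h using 2
    ring
  -- the root group of `p`
  refine hK p hp fun s => ?_
  have h2' : ∀ t : F, t + t = 0 := fun t => by linear_combination t * h2
  haveI : CharP F 2 := CharTwo.of_one_ne_zero_of_two_eq_zero one_ne_zero h2
  have hd : 1 / c1 - 1 / c2 ≠ 0 := by
    rw [sub_ne_zero, one_div, one_div]; exact fun e => hne (inv_injective e)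
  obtain ⟨b, hb⟩ : ∃ b : F, b ^ 2 = s / (1 / c1 - 1 / c2) := (isSquare_iff_exists_sq _).mp
    (FiniteField.isSquare_of_char_two (ringChar.eq F 2) _) |>.imp fun b hb => hb.symm
  have e1 := step a1 c1 (b / c1) k1
  have e2 := step a2 c2 (b / c2) k2
  rw [mul_div_cancel₀ _ hc1] at e1
  rw [mul_div_cancel₀ _ hc2] at e2
  have hbe : Cfsg.sympForm (n + 1) F p (b • e0) = 0 := by rw [form_smul_right, hpe, mul_zero]
  have h := K.mul_mem e1 (K.inv_mem e2)
  rw [qEl_inv hbe, qEl_mul hbe (by rw [form_neg_right, hbe, neg_zero]), add_neg_cancel, form_neg_right, form_self,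
    neg_zero, add_zero, qEl_zero_left] at h
  convert h using 2
  rw [eq_div_iff hd] at hb
  field_simp at hb ⊢
  linear_combination -hb

end Std

end CfsgLib.MinIndexPSp
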