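import Cfsg.Agent.MinIndexPSp.One

/-!
Every proper subgroup of `Sp_2m(q)`, `q ≥ 3`, `(m, q) ≠ (2, 3)`, has index at least the number of points of the
projective space.
-/

set_option autoImplicit false
set_option linter.unusedSectionVars false

open scoped Classical

namespace CfsgLib.MinIndexPSp

open Matrix CfsgLib.Classical.Symp

section Step

variable {n : ℕ} {F : Type*} [Field F] [Fintype F]

local notation "Bn" => Cfsg.sympForm n F
local notation "W" => (Fin n ⊕ Fin n → F)
local notation "Mn" => Matrix (Fin n ⊕ Fin n) (Fin n ⊕ Fin n) F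
local notation "Gs" => Matrix.symplecticGroup (Fin (n + 1)) F
local notation "Ln" => Matrix.symplecticGroup (Fin n) F
local notation "q" => Fintype.card F

theorem rbar_index_odd (h2 : (2 : F) ≠ 0) {K : Subgroup Gs} (hK : NoRoot K) : q ^ n ≤ (rbar K).index := by
  have h := sq_card_le (Cfsg.sympForm n F) form_add_right form_add_left (fun x c y => form_smul_right c x y)
    (fun x hx => eq_zero_of_form_eq_zero hx) (aSub K) (aSub_ne_top hK) (rbar K) fun x hx y hy => form_mem h2 hx hy
  rw [card_W, two_mul, pow_add] at h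
  have hm := (rbar K).card_mul_index
  rw [card_W, two_mul, pow_add] at hm
  by_contra hlt
  push Not at hlt
  have hρ : Nat.card (rbar K) ≤ q ^ n := Nat.mul_self_le_mul_self_iff.mp h
  exact lt_irrefl _ ((hm ▸ Nat.mul_lt_mul_of_le_of_lt hρ hlt (pow_pos Fintype.card_pos n)))

/-- The exceptional shape in characteristic two: `R̄` a hyperplane and `K̄` the stabiliser of its pole. -/
theorem exceptional_false (hn : 2 ≤ n) (h2 : (2 : F) = 0) (hq : 4 ≤ q) (K : Subgroup Gs)
    (hA : ∀ a ∈ aSub K, a = 0) (hI : (kbar K).index = pts q (2 * n)) (hτ : (rbar K).index = q) : False := by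
  obtain ⟨ψ, hψ⟩ := exists_char_ne_one (F := F)
  obtain ⟨T, hT⟩ : ∃ T : Finset W, T = (Finset.univ.filter fun x => x ∈ annSub ψ (rbar K)).erase 0 := ⟨_, rfl⟩
  have memT : ∀ {z : W}, z ∈ T ↔ z ≠ 0 ∧ z ∈ annSub ψ (rbar K) := by
    intro z; rw [hT, Finset.mem_erase, Finset.mem_filter]; simp
  have hTc : T.card + 1 = q := by
    rw [hT, Finset.card_erase_add_one (Finset.mem_filter.mpr ⟨Finset.mem_univ _, fun r _ => by
      rw [form_zero_left, AddChar.map_zero_eq_one]⟩), ← Fintype.card_subtype, ← Nat.card_eq_fintype_card,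
      ← hτ, ← card_annSub hψ]
  obtain ⟨t, htT⟩ : T.Nonempty := Finset.card_pos.mp (by omega)
  obtain ⟨ht0, htA⟩ := memT.mp htT
  let Φ : (Ln ⧸ kbar K) × T → {y : W // y ≠ 0} := fun p =>
    ⟨((p.1.out : Ln) : Mn) *ᵥ p.2.1, mulVec_ne_zero _ (memT.mp p.2.2).1⟩
  have hsurj : Function.Surjective Φ := by
    rintro ⟨y, hy⟩
    obtain ⟨g, hg⟩ := exists_symp_mulVec_eq ht0 hy
    obtain ⟨h, hh⟩ := QuotientGroup.mk_out_eq_mul (kbar K) g
    refine ⟨(QuotientGroup.mk g, ⟨(((h : Ln)⁻¹ : Ln) : Mn) *ᵥ t,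
      memT.mpr ⟨mulVec_ne_zero _ ht0, annSub_map ψ ((kbar K).inv_mem h.2) htA⟩⟩), Subtype.ext ?_⟩
    show (((QuotientGroup.mk g : Ln ⧸ kbar K).out : Ln) : Mn) *ᵥ _ = y
    rw [hh, mul_mulVec, mulVec_inv_cancel, hg]
  have hinj : Function.Injective Φ := by
    haveI := Fintype.ofFinite (Ln ⧸ kbar K)
    refine ((Fintype.bijective_iff_surjective_and_card Φ).mpr ⟨hsurj, ?_⟩).1
    rw [Fintype.card_prod, Fintype.card_coe, ← Nat.card_eq_fintype_card,
      show Nat.card (Ln ⧸ kbar K) = (kbar K).index from rfl, hI, show T.card = q - 1 by omega,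
      pts_mul_pred Fintype.card_pos, Fintype.card_subtype_compl, Fintype.card_fun, Fintype.card_sum, Fintype.card_fin,
      ← two_mul]
    simp
  have hstab : ∀ g : Ln, (g : Mn) *ᵥ t = t → g ∈ kbar K := by
    intro g hg
    obtain ⟨h, hh⟩ := QuotientGroup.mk_out_eq_mul (kbar K) (1 : Ln)
    obtain ⟨h', hh'⟩ := QuotientGroup.mk_out_eq_mul (kbar K) g
    have e := @hinj ((QuotientGroup.mk (1 : Ln)), ⟨(((h : Ln)⁻¹ : Ln) : Mn) *ᵥ t,
        memT.mpr ⟨mulVec_ne_zero _ ht0, annSub_map ψ ((kbar K).inv_mem h.2) htA⟩⟩)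
      ((QuotientGroup.mk g), ⟨(((h' : Ln)⁻¹ : Ln) : Mn) *ᵥ t,
        memT.mpr ⟨mulVec_ne_zero _ ht0, annSub_map ψ ((kbar K).inv_mem h'.2) htA⟩⟩) (Subtype.ext (by
        show (((QuotientGroup.mk (1 : Ln) : Ln ⧸ kbar K).out : Ln) : Mn) *ᵥ _ =
          (((QuotientGroup.mk g : Ln ⧸ kbar K).out : Ln) : Mn) *ᵥ _
        rw [hh, hh', mul_mulVec, mul_mulVec, mulVec_inv_cancel, mulVec_inv_cancel, hg, Submonoid.coe_one,
          one_mulVec]))
    have e' := QuotientGroup.eq.mp (congrArg Prod.fst e)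
    rwa [inv_one, one_mul] at e'
  -- the annihilator is the line of `t`
  have hline : ∀ y ∈ T, ∃ c : F, y = c • t := by
    intro y hy
    by_contra hh
    push Not at hh
    obtain ⟨hy0, hyA⟩ := memT.mp hy
    have hyspan : y ∉ Submodule.span F {t} := fun h => by
      obtain ⟨c, hc⟩ := Submodule.mem_span_singleton.mp h
      exact hh c hc.symm
    have hyk : ∀ g : Ln, (g : Mn) *ᵥ t = t → (g : Mn) *ᵥ y ∈ T := fun g hg =>
      memT.mpr ⟨mulVec_ne_zero _ hy0, annSub_map ψ (hstab g hg) hyA⟩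
    obtain ⟨u, htu, hu0, hyu⟩ : ∃ u : W, Bn t u = 0 ∧ u ≠ 0 ∧ Bn y u ≠ 0 := by
      obtain ⟨z, h1, h2'⟩ := exists_form_eq_eq ht0 hyspan (0 : F) 1
      refine ⟨z, h1, fun e => ?_, by rw [h2']; exact one_ne_zero⟩
      rw [e, form_zero_right] at h2'
      exact zero_ne_one h2'
    have : q ≤ T.card := by
      rw [← Finset.card_univ]
      refine Finset.card_le_card_of_injOn (fun c => (spT u c : Mn) *ᵥ y) (fun c _ => hyk _ ?_) fun a _ b _ h => ?_
      · rw [spT_mulVec, htu, mul_zero, zero_smul, add_zero]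
      · simp only [spT_mulVec, add_right_inj] at h
        exact mul_right_cancel₀ hyu (smul_left_injective F hu0 h)
    omega
  -- the radical image is the hyperplane `t^⊥`
  have hR : ∀ r : W, Bn t r = 0 → r ∈ rbar K := by
    obtain ⟨S, hSdef⟩ : ∃ S : Finset W, S = Finset.univ.filter fun r => Bn t r = 0 := ⟨_, rfl⟩
    obtain ⟨R, hRdef⟩ : ∃ R : Finset W, R = Finset.univ.filter fun r => r ∈ rbar K := ⟨_, rfl⟩
    have hsub : R ⊆ S := by
      intro r hr
      rw [hRdef, Finset.mem_filter] at hr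
      rw [hSdef, Finset.mem_filter]
      refine ⟨Finset.mem_univ _, ?_⟩
      by_contra hne
      -- all scalar multiples of `t` annihilate `r`
      have hall : ∀ c : F, ψ (c * Bn t r) = 1 := by
        intro c
        have hTline : T = ((Finset.univ : Finset F).erase 0).image (· • t) := by
          refine Finset.eq_of_subset_of_card_le (fun y hy => ?_) ?_
          · obtain ⟨c, hc⟩ := hline y hy
            exact Finset.mem_image.mpr ⟨c, Finset.mem_erase.mpr ⟨fun e => (memT.mp hy).1 (by rw [hc, e, zero_smul]),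
              Finset.mem_univ _⟩, hc.symm⟩
          · refine Finset.card_image_le.trans ?_
            rw [Finset.card_erase_of_mem (Finset.mem_univ _), Finset.card_univ]
            omega
        by_cases hc : c = 0
        · rw [hc, zero_mul, AddChar.map_zero_eq_one]
        · have : c • t ∈ T := hTline ▸ Finset.mem_image.mpr ⟨c, Finset.mem_erase.mpr ⟨hc, Finset.mem_univ _⟩, rfl⟩
          have h := (memT.mp this).2 r hr.2
          rwa [form_smul_left] at h
      obtain ⟨s, hs⟩ := AddChar.ne_one_iff.mp hψ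
      exact hs (by have := hall (s / Bn t r); rwa [div_mul_cancel₀ _ hne] at this)
    have hcard : S.card ≤ R.card := by
      obtain ⟨z, hz⟩ := exists_form_eq_one ht0
      have h1 : S.card * q ≤ q ^ (2 * n) := by
        rw [← card_W (n := n), hSdef, ← Fintype.card_subtype, ← Nat.card_eq_fintype_card,
          ← Nat.card_eq_fintype_card (α := F), ← Nat.card_prod]
        refine Nat.card_le_card_of_injective (fun p : {r // Bn t r = 0} × F => p.1.1 + p.2 • z) ?_
        rintro ⟨⟨a, ha⟩, c⟩ ⟨⟨b, hb⟩, d⟩ h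
        have h' : a + c • z = b + d • z := h
        have e := congrArg (fun v => Bn t v) h'
        simp only [form_add_right, form_smul_right, ha, hb, hz, zero_add, mul_one] at e
        subst e
        exact Prod.ext (Subtype.ext (add_right_cancel h')) rfl
      have h2' := (rbar K).card_mul_index
      rw [hτ, card_W] at h2'
      have h3 : R.card = Nat.card (rbar K) := by
        rw [hRdef, ← Fintype.card_subtype, Nat.card_eq_fintype_card]
      rw [← h2', ← h3] at h1
      exact Nat.le_of_mul_le_mul_right h1 Fintype.card_pos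
    have heq := Finset.eq_of_subset_of_card_le hsub hcard
    intro r hr
    have : r ∈ R := heq ▸ hSdef ▸ Finset.mem_filter.mpr ⟨Finset.mem_univ _, hr⟩
    rw [hRdef, Finset.mem_filter] at this
    exact this.2
  choose! f hf using fun r hr => mem_rbar.mp (hR r hr)
  have hadd : ∀ r s : W, Bn t r = 0 → Bn t s = 0 → f (r + s) = f r + f s + Bn r s := by
    intro r s hr hs
    have h := qS_mul r s (f r) (f s) ▸ K.mul_mem (hf r hr) (hf s hs)
    exact sub_eq_zero.mp (hA _ (sub_mem_aSub (hf (r + s) (by rw [form_add_right, hr, hs, add_zero])) h))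
  have hstep : ∀ r s : W, Bn t r = 0 → Bn t s = 0 → Bn r s ≠ 0 → f r = f s := by
    intro r s hr hs hrs
    obtain ⟨w0, z0, hk⟩ := mem_kbar.mp (hstab (spT (s - r) (Bn r s)⁻¹) (by
      rw [spT_mulVec, form_sub_right, hs, hr, sub_zero, mul_zero, zero_smul, add_zero]))
    have h := conj_qS_mem hk (hf r hr)
    rw [spT_move hrs, h2, zero_mul, add_zero] at h
    exact sub_eq_zero.mp (hA _ (sub_mem_aSub h (hf s hs)))
  -- a hyperbolic pair orthogonal to `t`
  obtain ⟨r, s, hr, hs, hrs⟩ : ∃ r s : W, Bn t r = 0 ∧ Bn t s = 0 ∧ Bn r s = 1 := by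
    haveI : NeZero n := ⟨by omega⟩
    obtain ⟨z, hz⟩ := exists_form_eq_one ht0
    obtain ⟨g, hg1, hg2⟩ := exists_symp_pair_eq (u := (stdE ⟨0, by omega⟩ : W)) (v := stdF ⟨0, by omega⟩)
      (u' := t) (v' := z) (by rw [form_stdE_stdF, if_pos rfl]) hz
    refine ⟨(g : Mn) *ᵥ stdE ⟨1, hn⟩, (g : Mn) *ᵥ stdF ⟨1, hn⟩, ?_, ?_, ?_⟩
    · rw [← hg1, form_mulVec, form_stdE_stdE]
    · rw [← hg1, form_mulVec, form_stdE_stdF, if_neg (by simp [Fin.ext_iff])]
    · rw [form_mulVec, form_stdE_stdF, if_pos rfl]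
  have e1 := hstep r s hr hs (by rw [hrs]; exact one_ne_zero)
  have hrs' : Bn t (r + s) = 0 := by rw [form_add_right, hr, hs, add_zero]
  have e2 := hstep r (r + s) hr hrs' (by rw [form_add_right, form_self, hrs, zero_add]; exact one_ne_zero)
  have e3 := hadd r s hr hs
  rw [hrs, ← e2, ← e1] at e3
  have hf1 : f r = 1 := by linear_combination -e3 - h2
  obtain ⟨a, ha⟩ := exists_unit_sq_ne_one hq
  have ha1 : (a : F) + 1 ≠ 0 := fun e => ha (by
    have h' : (a : F) = 1 := by linear_combination e - h2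
    rw [h', one_pow])
  have htmul : ∀ c : F, Bn t (c • r) = 0 := fun c => by rw [form_smul_right, hr, mul_zero]
  have e4 : ∀ c : F, c ≠ 0 → f (c • r) = 1 := fun c hc => by
    rw [hstep (c • r) s (htmul c) hs (by rw [form_smul_left, hrs, mul_one]; exact hc), ← e1, hf1]
  have e5 := hadd r ((a : F) • r) hr (htmul _)
  rw [show r + (a : F) • r = ((a : F) + 1) • r by module, e4 _ ha1, hf1, e4 _ a.ne_zero, form_smul_right, form_self,
    mul_zero, add_zero] at e5
  exact one_ne_zero (α := F) (by linear_combination -e5)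

set_option maxHeartbeats 1000000 in
/-- The proper image case for `n ≥ 2`. -/
theorem big_false (hn : 2 ≤ n) (hq : 3 ≤ q) (K : Subgroup Gs) (hK : NoRoot K)
    (hidx : K.index < pts q (2 * (n + 1))) (hk : kbar K ≠ ⊤) (hr : rbar K ≠ ⊤)
    (hIH : ¬ (n = 2 ∧ q = 3) → pts q (2 * n) ≤ (kbar K).index) : False := by
  have hN : pts q (2 * (n + 1)) = q ^ 2 * pts q (2 * n) + q + 1 := by
    rw [show 2 * (n + 1) = 2 * n + 2 by ring, pts_add_two]
  have hP0 : q + 1 ≤ pts q (2 * n) := pts_lower (by omega)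
  by_cases hexc : n = 2 ∧ q = 3
  · -- `Sp_6(3)`
    obtain ⟨hn2, hq3⟩ := hexc
    have h2 : (2 : F) ≠ 0 := fun h => by
      haveI : CharP F 2 := CharTwo.of_one_ne_zero_of_two_eq_zero one_ne_zero h
      obtain ⟨k, -, hk'⟩ := FiniteField.card F 2
      have : 2 ∣ q := hk' ▸ dvd_pow_self 2 k.ne_zero
      omega
    obtain ⟨hΦ, hA⟩ := phi_prime hK hq3
    refine count_false K hidx hΦ ?_
    rw [hN, hq3]
    have hb : pts 3 (2 * n) = 40 := by rw [hn2, show 2 * 2 = 4 from rfl, pts_four]; norm_num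
    rw [hb]
    by_cases h0 : ∀ r ∈ rbar K, r = 0
    · have hτ : (rbar K).index = 81 := by
        haveI : Subsingleton (rbar K) := ⟨fun a b => Subtype.ext ((h0 _ a.2).trans (h0 _ b.2).symm)⟩
        have h := (rbar K).card_mul_index
        rw [card_W, hq3, Nat.card_unique, one_mul] at h
        exact h.trans (by rw [hn2]; norm_num)
      have hI : 2 ≤ (kbar K).index := by
        have h1 : (kbar K).index ≠ 1 := fun e => hk (Subgroup.index_eq_one.mp e)
        have h0 : (kbar K).index ≠ 0 := Subgroup.index_ne_zero_of_finite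
        omega
      rw [hτ]
      omega
    · have hτ := rbar_index_odd h2 hK
      rw [hq3] at hτ
      have hτ9 : 9 ≤ (rbar K).index := le_trans (by rw [hn2]; norm_num) hτ
      push Not at h0
      obtain ⟨x, hxR, hx⟩ := h0
      set I := Submodule.span F (rbar K : Set W)
      have hinv : InvSub (kbar K) I := by
        intro g hg v hv
        induction hv using Submodule.span_induction with
        | mem y hy => exact Submodule.subset_span (kbar_rbar hg hy)
        | zero => simp
        | add a b _ _ ha hb => rw [mulVec_add]; exact I.add_mem ha hb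
        | smul c a _ ha => rw [mulVec_smul]; exact I.smul_mem c ha
      have hiso1 : ∀ a ∈ I, ∀ y ∈ rbar K, Bn a y = 0 := by
        intro a ha y hy
        induction ha using Submodule.span_induction with
        | mem z hz => exact hA _ (form_mem h2 hz hy)
        | zero => exact form_zero_left _
        | add c d _ _ hc hd => rw [form_add_left, hc, hd, add_zero]
        | smul c d _ hd => rw [form_smul_left, hd, mul_zero]
      have hiso : ∀ a ∈ I, ∀ b ∈ I, Bn a b = 0 := by
        intro a ha b hb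
        induction hb using Submodule.span_induction with
        | mem y hy => exact hiso1 a ha y hy
        | zero => exact form_zero_right _
        | add c d _ _ hc hd => rw [form_add_right, hc, hd, add_zero]
        | smul c d _ hd => rw [form_smul_right, hd, mul_zero]
      have hI := index_ge_of_isotropic (kbar K) I hinv
        (fun e => hx ((Submodule.mem_bot F).mp (e ▸ Submodule.subset_span hxR))) hiso
      rw [hq3, hb] at hI
      nlinarith
  have hP := hIH hexc
  obtain ⟨I, hI⟩ : ∃ I, I = (kbar K).index := ⟨_, rfl⟩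
  obtain ⟨τ, hτ⟩ : ∃ τ, τ = (rbar K).index := ⟨_, rfl⟩
  obtain ⟨P, hPdef⟩ : ∃ P, P = pts q (2 * n) := ⟨_, rfl⟩
  rw [← hPdef, ← hI] at hP
  rw [← hPdef] at hN hP0
  by_cases h2 : (2 : F) = 0
  swap
  · refine count_false K hidx (phi_two hK) ?_
    rw [hN, ← hI, ← hτ]
    have hτn : q ^ 2 ≤ τ := (Nat.pow_le_pow_right (by omega) hn).trans (hτ ▸ rbar_index_odd h2 hK)
    calc q ^ 2 * P + q + 1 ≤ 2 * (P * q ^ 2) := by
          have : q + 1 ≤ q ^ 2 * P := hP0.trans (Nat.le_mul_of_pos_left _ (pow_pos (by omega) _))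
          rw [mul_comm P]; omega
      _ ≤ 2 * (I * τ) := Nat.mul_le_mul_left _ (Nat.mul_le_mul hP hτn)
  have hq4 : 4 ≤ q := by
    haveI : CharP F 2 := CharTwo.of_one_ne_zero_of_two_eq_zero one_ne_zero h2
    obtain ⟨k, -, hk'⟩ := FiniteField.card F 2
    have : 2 ∣ q := hk' ▸ dvd_pow_self 2 k.ne_zero
    omega
  have hγα := phi_even hK h2
  have hα0 : 0 < Nat.card (aSub K) := Nat.card_pos
  obtain ⟨ψ, hψ⟩ := exists_char_ne_one (F := F)
  have hcov := cover_bound K ψ hψ hr
  rw [← hI, ← hτ, ← pts_mul_pred (Fintype.card_pos (α := F)), ← hPdef] at hcov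
  have hτ1 : 2 ≤ τ := by
    have h1 : τ ≠ 1 := fun e => hr (AddSubgroup.index_eq_one.mp (hτ ▸ e))
    have h0 : τ ≠ 0 := hτ ▸ AddSubgroup.index_ne_zero_of_finite
    omega
  obtain ⟨p, hp⟩ : ∃ p, q = p + 1 := ⟨q - 1, by omega⟩
  -- with the weakest scalar bound
  by_cases hgood : q * P + 2 ≤ I * τ
  · refine lt_irrefl _ ((count_lt K hidx).trans_le (le_trans (Nat.mul_le_mul_right _
      (show Nat.card (scal K) * Nat.card (aSub K) ≤ q - 1 by omega)) ?_))
    rw [← hI, ← hτ, hN, mul_assoc (q - 1)]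
    refine Nat.mul_le_mul_left _ (le_trans ?_ (Nat.mul_le_mul_left _ hgood))
    nlinarith
  push Not at hgood
  rw [hp, Nat.add_sub_cancel] at hcov
  obtain ⟨t, ht⟩ : ∃ t, τ = t + 2 := ⟨τ - 2, by omega⟩
  have hIt : P * p ≤ I * (t + 1) := by rw [ht, show t + 2 - 1 = t + 1 by omega] at hcov; exact hcov
  have hIP : I ≤ P + 1 := by
    by_contra hlt
    have e : I * τ = I * (t + 1) + I := by rw [ht]; ring
    have e' : q * P = P * p + P := by rw [hp]; ring
    omega
  have hτq : τ = q := by
    obtain ⟨j, hj, hτj⟩ : ∃ j k, τ = 2 ^ j ∧ q = 2 ^ k := by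
      haveI : CharP F 2 := CharTwo.of_one_ne_zero_of_two_eq_zero one_ne_zero h2
      obtain ⟨k, -, hk'⟩ := FiniteField.card F 2
      have hdvd : τ ∣ 2 ^ ((k : ℕ) * (2 * n)) := by
        rw [pow_mul, ← hk', ← card_W, ← (rbar K).card_mul_index, ← hτ]; exact Dvd.intro_left _ rfl
      obtain ⟨j, -, hj⟩ := (Nat.dvd_prime_pow Nat.prime_two).mp hdvd
      exact ⟨j, k, hj, hk'⟩
    obtain ⟨hτj, hqk⟩ := hτj
    rcases Nat.lt_trichotomy j hj with hlt | heq | hgt
    · exfalso
      have : τ < q := by rw [hτj, hqk]; exact Nat.pow_lt_pow_right (by norm_num) hlt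
      have e : I * (t + 1) ≤ (P + 1) * (t + 1) := Nat.mul_le_mul_right _ hIP
      have hle : (P + 1) * (t + 1) ≤ (P + 1) * (p - 1) := Nat.mul_le_mul_left _ (by omega)
      obtain ⟨r, hr'⟩ : ∃ r, p = r + 1 := ⟨p - 1, by omega⟩
      rw [hr', Nat.add_sub_cancel] at hle
      have : P * (r + 1) ≤ (P + 1) * r := hr' ▸ (hIt.trans (e.trans hle))
      nlinarith
    · rw [hτj, hqk, heq]
    · exfalso
      have h2q : 2 * q ≤ τ := by
        rw [hτj, hqk, ← pow_succ']; exact Nat.pow_le_pow_right (by norm_num) hgt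
      have : P * (2 * q) ≤ I * τ := Nat.mul_le_mul hP h2q
      nlinarith
  have hIeq : I = P := by
    by_contra hne
    have : (P + 1) * q ≤ I * τ := Nat.mul_le_mul (by omega) hτq.ge
    nlinarith
  by_cases hsmall : Nat.card (scal K) * Nat.card (aSub K) + 2 ≤ q
  · refine lt_irrefl _ ((count_lt K hidx).trans_le (le_trans (Nat.mul_le_mul_right _
      (show Nat.card (scal K) * Nat.card (aSub K) ≤ q - 2 by omega)) ?_))
    rw [← hI, ← hτ, hN, hτq, hIeq]
    obtain ⟨r, hr'⟩ : ∃ r, q = r + 4 := ⟨q - 4, by omega⟩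
    rw [hr', show r + 4 - 2 = r + 2 by omega, show r + 4 - 1 = r + 3 by omega]
    rw [hr'] at hP0
    nlinarith [Nat.mul_le_mul_left ((r + 4) * (r + 4)) hP0]
  have hα1 : Nat.card (aSub K) = 1 := by omega
  refine exceptional_false hn h2 hq4 K (fun a ha => ?_) (by rw [← hI, hIeq, hPdef]) (hτ ▸ hτq)
  have := (Nat.card_eq_one_iff_unique.mp hα1).1
  exact congrArg Subtype.val (Subsingleton.elim (⟨a, ha⟩ : aSub K) 0)

end Step

/-- Every proper subgroup of `Sp_2m(q)` has index at least the number of points. -/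
theorem pts_le_index {F : Type*} [Field F] [Fintype F] (hq : 3 ≤ Fintype.card F) :
    ∀ m : ℕ, 2 ≤ m → ¬ (m = 2 ∧ Fintype.card F = 3) →
      ∀ K : Subgroup (Matrix.symplecticGroup (Fin m) F), K ≠ ⊤ → pts (Fintype.card F) (2 * m) ≤ K.index := by
  intro m
  induction m with
  | zero => intro h; omega
  | succ n ih =>
    intro hm hexc K hK
    by_contra hlt
    push Not at hlt
    have hNR : NoRoot K := fun v hv hr => absurd (index_ge_of_root hq (Nat.succ_pos n) K hK hv hr) (not_le.mpr hlt)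
    have hn : 1 ≤ n := by omega
    obtain ⟨a, hrb⟩ : ∃ a, rbar (conjSub a K) ≠ ⊤ := by
      by_cases h2 : (2 : F) = 0
      · refine exists_conj_rbar_ne_top hn h2 ?_ K hNR
        haveI : CharP F 2 := CharTwo.of_one_ne_zero_of_two_eq_zero one_ne_zero h2
        obtain ⟨k, -, hk'⟩ := FiniteField.card F 2
        have : 2 ∣ Fintype.card F := hk' ▸ dvd_pow_self 2 k.ne_zero
        omega
      · refine ⟨1, fun e => ?_⟩
        have h := rbar_index_odd h2 (hNR.conjSub (a := 1))
        rw [e, AddSubgroup.index_top] at h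
        have := Nat.one_lt_pow (show n ≠ 0 by omega) (show 1 < Fintype.card F by omega)
        omega
    set K' := conjSub a K
    have hK' : NoRoot K' := hNR.conjSub
    have hidx : K'.index < pts (Fintype.card F) (2 * (n + 1)) := by rw [index_conjSub]; exact hlt
    by_cases hq4 : 4 ≤ Fintype.card F
    · by_cases htop : kbar K' = ⊤
      · by_cases h2 : (2 : F) = 0
        · exact top_false_even hn h2 hq4 K' hK' hidx htop hrb
        · exact top_false_odd hn h2 (commutator_eq_top (Or.inr (Or.inr hq4))) K' hK' htop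
      · rcases Nat.lt_or_ge n 2 with h1 | h2n
        · obtain rfl : n = 1 := by omega
          exact one_false hq4 K' hK' hidx htop hrb
        · exact big_false h2n hq K' hK' hidx htop hrb fun he => ih h2n he _ htop
    · have hq3 : Fintype.card F = 3 := by omega
      have hn2 : 2 ≤ n := by
        by_contra h
        exact hexc ⟨by omega, hq3⟩
      by_cases htop : kbar K' = ⊤
      · refine top_false_odd hn (fun h2 => ?_) (commutator_eq_top ?_) K' hK' htop
        · haveI : CharP F 2 := CharTwo.of_one_ne_zero_of_two_eq_zero one_ne_zero h2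
          obtain ⟨k, -, hk'⟩ := FiniteField.card F 2
          have : 2 ∣ Fintype.card F := hk' ▸ dvd_pow_self 2 k.ne_zero
          omega
        · rcases Nat.lt_or_ge n 3 with h | h
          · exact Or.inr (Or.inl ⟨by omega, hq⟩)
          · exact Or.inl h
      · exact big_false hn2 hq K' hK' hidx htop hrb fun he => ih hn2 he _ htop

end CfsgLib.MinIndexPSp
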