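import Cfsg.Agent.MinIndexPSp.Top

/-!
The case of `Sp_4(q)`: the image in `Sp_2(q)` is proper.
-/

set_option autoImplicit false
set_option linter.unusedSectionVars false

open scoped Classical

namespace CfsgLib.MinIndexPSp

open Matrix CfsgLib.Classical.Symp

section General

variable {n : ℕ} {F : Type*} [Field F] [Fintype F]

local notation "Bn" => Cfsg.sympForm n F
local notation "W" => (Fin n ⊕ Fin n → F)
local notation "Ln" => Matrix.symplecticGroup (Fin n) F

/-- The annihilator of an additive subgroup for a character of the form. -/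
def annSub (ψ : AddChar F ℂ) (R : AddSubgroup W) : Set W := {x | ∀ r ∈ R, ψ (Bn x r) = 1}

theorem card_annSub {ψ : AddChar F ℂ} (hψ : ψ ≠ 1) (R : AddSubgroup W) :
    Nat.card (annSub ψ R) = R.index := by
  have h := card_annihilator (Cfsg.sympForm n F) form_add_right form_add_left (fun x c y => form_smul_right c x y)
    (fun x hx => eq_zero_of_form_eq_zero hx) ψ hψ R
  rw [← R.card_mul_index, mul_comm (Nat.card R)] at h
  exact Nat.eq_of_mul_eq_mul_right Nat.card_pos h

theorem exists_char_ne_one : ∃ ψ : AddChar F ℂ, ψ ≠ 1 := by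
  obtain ⟨ψ, hψ⟩ := (AddChar.exists_apply_ne_zero (a := (1 : F))).mpr one_ne_zero
  exact ⟨ψ, AddChar.ne_one_iff.mpr ⟨1, hψ⟩⟩

theorem annSub_map {K : Subgroup (Matrix.symplecticGroup (Fin (n + 1)) F)} (ψ : AddChar F ℂ) {g : Ln}
    (hg : g ∈ kbar K) {x : W} (hx : x ∈ annSub ψ (rbar K)) :
    (g : Matrix (Fin n ⊕ Fin n) (Fin n ⊕ Fin n) F) *ᵥ x ∈ annSub ψ (rbar K) := by
  intro r hr
  rw [← form_mulVec g⁻¹, inv_mulVec_cancel]
  exact hx _ (kbar_rbar ((kbar K).inv_mem hg) hr)

/-- The translates of the annihilator cover the nonzero vectors. -/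
theorem cover_bound (K : Subgroup (Matrix.symplecticGroup (Fin (n + 1)) F)) (ψ : AddChar F ℂ) (hψ : ψ ≠ 1)
    (hr : rbar K ≠ ⊤) :
    Fintype.card F ^ (2 * n) - 1 ≤ (kbar K).index * ((rbar K).index - 1) := by
  obtain ⟨T, hT⟩ : ∃ T : Finset W, T = (Finset.univ.filter fun x => x ∈ annSub ψ (rbar K)).erase 0 := ⟨_, rfl⟩
  have hTc : T.card + 1 = (rbar K).index := by
    rw [hT, Finset.card_erase_add_one (Finset.mem_filter.mpr ⟨Finset.mem_univ _, fun r _ => by
      rw [form_zero_left, AddChar.map_zero_eq_one]⟩), ← Fintype.card_subtype, ← Nat.card_eq_fintype_card,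
      ← card_annSub hψ]
  obtain ⟨t, ht⟩ : T.Nonempty := by
    rw [← Finset.card_pos]
    have h1 : (rbar K).index ≠ 1 := fun e => hr (AddSubgroup.index_eq_one.mp e)
    have h0 : (rbar K).index ≠ 0 := AddSubgroup.index_ne_zero_of_finite
    omega
  rw [hT, Finset.mem_erase, Finset.mem_filter] at ht
  have hc := Finset.card_le_card (s := (Finset.univ : Finset W).erase 0)
    (t := ((Finset.univ : Finset (Ln ⧸ kbar K)) ×ˢ T).image fun p =>
      (p.1.out : Matrix (Fin n ⊕ Fin n) (Fin n ⊕ Fin n) F) *ᵥ p.2) ?_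
  · have h := hc.trans Finset.card_image_le
    rw [Finset.card_erase_of_mem (Finset.mem_univ _), Finset.card_univ, Finset.card_product, Finset.card_univ,
      Fintype.card_fun, Fintype.card_sum, Fintype.card_fin, ← two_mul, ← Nat.card_eq_fintype_card (α := Ln ⧸ kbar K)] at h
    rw [show (rbar K).index - 1 = T.card by omega]
    exact h
  · intro y hy
    obtain ⟨g, hg⟩ := exists_symp_mulVec_eq ht.1 (Finset.ne_of_mem_erase hy)
    obtain ⟨h, hh⟩ := QuotientGroup.mk_out_eq_mul (kbar K) g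
    refine Finset.mem_image.mpr ⟨((QuotientGroup.mk g : Ln ⧸ kbar K),
      (((h : Ln)⁻¹ : Ln) : Matrix (Fin n ⊕ Fin n) (Fin n ⊕ Fin n) F) *ᵥ t), Finset.mem_product.mpr ⟨Finset.mem_univ _, ?_⟩, ?_⟩
    · rw [hT, Finset.mem_erase, Finset.mem_filter]
      exact ⟨mulVec_ne_zero _ ht.1, Finset.mem_univ _, annSub_map ψ ((kbar K).inv_mem h.2) ht.2.2⟩
    · show (((QuotientGroup.mk g : Ln ⧸ kbar K).out : Ln) : Matrix (Fin n ⊕ Fin n) (Fin n ⊕ Fin n) F) *ᵥ _ = y
      rw [hh, mul_mulVec, mulVec_inv_cancel, hg]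

end General

section One

variable {F : Type*} [Field F] [Fintype F]

local notation "Bn" => Cfsg.sympForm 1 F
local notation "W" => (Fin 1 ⊕ Fin 1 → F)
local notation "Mn" => Matrix (Fin 1 ⊕ Fin 1) (Fin 1 ⊕ Fin 1) F
local notation "Gs" => Matrix.symplecticGroup (Fin (1 + 1)) F
local notation "Ln" => Matrix.symplecticGroup (Fin 1) F
local notation "q" => Fintype.card F

theorem eq_smul_of_form_zero {x y z : W} (hxy : Bn x y = 1) (h : Bn x z = 0) : z = Bn z y • x := by
  have e : ∀ a b : W, Bn a b = a (Sum.inr 0) * b (Sum.inl 0) - a (Sum.inl 0) * b (Sum.inr 0) := fun a b => by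
    rw [form_apply, Fin.sum_univ_one]
  rw [e] at hxy h
  funext j
  rw [Pi.smul_apply, smul_eq_mul, e]
  rcases j with i | i <;> rw [Subsingleton.elim i 0]
  · linear_combination (y (Sum.inl 0)) * h - (z (Sum.inl 0)) * hxy
  · linear_combination (y (Sum.inr 0)) * h - (z (Sum.inr 0)) * hxy

theorem card_L1 : Nat.card Ln = q * (q ^ 2 - 1) := by
  rw [card_symplecticGroup]
  simp

/-- The stabiliser of a line. -/
def borel (x : W) : Subgroup Ln where
  carrier := {g | ∃ c : F, c ≠ 0 ∧ (g : Mn) *ᵥ x = c • x}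
  one_mem' := ⟨1, one_ne_zero, by simp⟩
  mul_mem' := fun {a b} ⟨c, hc, ha⟩ ⟨d, hd, hb⟩ => ⟨d * c, mul_ne_zero hd hc, by
    rw [mul_mulVec, hb, mulVec_smul, ha, smul_smul]⟩
  inv_mem' := fun {a} ⟨c, hc, ha⟩ => ⟨c⁻¹, inv_ne_zero hc, by
    have h := inv_mulVec_cancel a x
    rw [ha, mulVec_smul] at h
    calc _ = c⁻¹ • c • (((a⁻¹ : Ln) : Mn) *ᵥ x) := by rw [smul_smul, inv_mul_cancel₀ hc, one_smul]
      _ = c⁻¹ • x := by rw [h]⟩

/-- Elements stabilising a line and a set of scalars. -/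
theorem card_le_scalars {x y : W} (hxy : Bn x y = 1) (H : Subgroup Ln) (S : Set F)
    (hS : ∀ g ∈ H, ∃ c ∈ S, c ≠ 0 ∧ (g : Mn) *ᵥ x = c • x) : Nat.card H ≤ Nat.card S * q := by
  choose c hcS hc0 hc using hS
  rw [← Nat.card_eq_fintype_card (α := F), ← Nat.card_prod]
  refine Nat.card_le_card_of_injective
    (fun g : H => ((⟨c g.1 g.2, hcS g.1 g.2⟩ : S), Bn (((g : Ln) : Mn) *ᵥ y) y)) ?_
  intro a b h
  have e1 : c a.1 a.2 = c b.1 b.2 := congrArg (fun p => p.1.1) h
  have e2 : Bn (((a : Ln) : Mn) *ᵥ y) y = Bn (((b : Ln) : Mn) *ᵥ y) y := congrArg (fun p => p.2) h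
  have hx' : ((a : Ln) : Mn) *ᵥ x = ((b : Ln) : Mn) *ᵥ x := by rw [hc a.1 a.2, hc b.1 b.2, e1]
  have hy' : ((a : Ln) : Mn) *ᵥ y = ((b : Ln) : Mn) *ᵥ y := by
    have d : Bn x (((a : Ln) : Mn) *ᵥ y - ((b : Ln) : Mn) *ᵥ y) = 0 := by
      have ha := form_mulVec (a : Ln) x y
      have hb := form_mulVec (b : Ln) x y
      rw [hc a.1 a.2, form_smul_left, ← hb, hc b.1 b.2, form_smul_left, e1] at ha
      rw [form_sub_right, mul_left_cancel₀ (hc0 b.1 b.2) ha, sub_self]
    rw [← sub_eq_zero, eq_smul_of_form_zero hxy d, form_sub_left, e2, sub_self, zero_smul]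
  refine Subtype.ext (symp_ext fun z => ?_)
  have hz : z = Bn z y • x + Bn x z • y := by
    have e := eq_smul_of_form_zero hxy (z := z - Bn x z • y) (by rw [form_sub_right, form_smul_right, hxy]; ring)
    rw [form_sub_left, form_smul_left, form_self, mul_zero, sub_zero] at e
    linear_combination (norm := module) e
  rw [hz]
  simp only [mulVec_add, mulVec_smul, hx', hy']

theorem card_borel_le {x y : W} (hxy : Bn x y = 1) : Nat.card (borel x) ≤ (q - 1) * q := by
  refine (card_le_scalars hxy (borel x) ({0}ᶜ) fun g ⟨c, hc, h⟩ => ⟨c, hc, hc, h⟩).trans (le_of_eq ?_)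
  congr 1
  rw [Nat.card_eq_fintype_card, Fintype.card_compl_set]
  simp

theorem index_kbar_ge_three (hq : 4 ≤ q) (K : Subgroup Gs) (h : kbar K ≠ ⊤) : 3 ≤ (kbar K).index := by
  by_contra h3
  have h1 : (kbar K).index ≠ 1 := fun e => h (Subgroup.index_eq_one.mp e)
  have h0 : (kbar K).index ≠ 0 := Subgroup.index_ne_zero_of_finite
  have h2 : (kbar K).index = 2 := by omega
  have hperf : commutator Ln = ⊤ := commutator_eq_top (Or.inr (Or.inr hq))
  refine h (eq_top_iff.mpr ?_)
  rw [← hperf, commutator_def, Subgroup.commutator_le]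
  intro a _ b _
  have hm := fun x y : Ln => Subgroup.mul_mem_iff_of_index_two h2 (a := x) (b := y)
  rw [commutatorElement_def, hm, hm, hm, Subgroup.inv_mem_iff, Subgroup.inv_mem_iff]
  tauto

set_option maxHeartbeats 1000000 in
/-- The image of the radical is a whole line and the image is its stabiliser. -/
theorem borel_false (hq : 4 ≤ q) (K : Subgroup Gs) (hK : NoRoot K) (hidx : K.index < pts q 4) {x y : W}
    (hxy : Bn x y = 1) (hline : ∀ r : W, r ∈ rbar K ↔ ∃ a : F, r = a • x) (hB : kbar K = borel x) : False := by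
  have hx : x ≠ 0 := fun e => by rw [e, form_zero_left] at hxy; exact zero_ne_one hxy
  have hτ : (rbar K).index = q := by
    have hρ : Nat.card (rbar K) = q := by
      rw [← Nat.card_eq_fintype_card (α := F)]
      refine (Nat.card_eq_of_bijective (fun a : F => (⟨a • x, (hline _).mpr ⟨a, rfl⟩⟩ : rbar K))
        ⟨fun a b h => smul_left_injective F hx (congrArg Subtype.val h), fun r => ?_⟩).symm
      obtain ⟨a, ha⟩ := (hline _).mp r.2
      exact ⟨a, Subtype.ext ha.symm⟩
    have h := (rbar K).card_mul_index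
    rw [card_W, hρ, mul_one, pow_two] at h
    exact Nat.eq_of_mul_eq_mul_left Fintype.card_pos h
  have hidxK : q + 1 ≤ (kbar K).index := by
    have h := (kbar K).card_mul_index
    rw [card_L1] at h
    have hle : Nat.card (kbar K) ≤ (q - 1) * q := hB ▸ card_borel_le hxy
    have hpos : 0 < (q - 1) * q := Nat.mul_pos (by omega) Fintype.card_pos
    refine Nat.le_of_mul_le_mul_left ?_ hpos
    calc (q - 1) * q * (q + 1) = q * (q ^ 2 - 1) := by
          obtain ⟨p, hp⟩ : ∃ p, q = p + 1 := ⟨q - 1, by omega⟩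
          rw [hp, show (p + 1) ^ 2 - 1 = p * (p + 1 + 1) by rw [show (p + 1) ^ 2 = p * (p + 1 + 1) + 1 by ring]; simp,
            Nat.add_sub_cancel]
          ring
      _ = Nat.card (kbar K) * (kbar K).index := h.symm
      _ ≤ _ := Nat.mul_le_mul_right _ hle
  -- a torus element of the stabiliser
  obtain ⟨h0, hh1, hh2⟩ := exists_symp_pair_eq (u := (stdE 0 : W)) (v := stdF 0) (u' := x) (v' := y)
    (by rw [form_stdE_stdF, if_pos rfl]) hxy
  obtain ⟨a, ha⟩ := exists_unit_sq_ne_one hq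
  have ha1 : a ≠ 1 := fun e => ha (by rw [e, Units.val_one, one_pow])
  let tor : Fˣ → Ln := fun b => h0 * torEl (fun _ => b) * h0⁻¹
  have htx : ∀ b : Fˣ, (tor b : Mn) *ᵥ x = (b : F) • x := fun b => by
    simp only [tor]
    rw [mul_mulVec, mul_mulVec, ← hh1, inv_mulVec_cancel, torEl_stdE, mulVec_smul]
  have htmem : ∀ b : Fˣ, tor b ∈ kbar K := fun b => hB ▸ ⟨b, b.ne_zero, htx b⟩
  have hspmem : ∀ c : F, spT x c ∈ kbar K := fun c => hB ▸ ⟨1, one_ne_zero, by
    rw [spT_mulVec, form_self, mul_zero, zero_smul, add_zero, one_smul]⟩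
  by_cases h2 : (2 : F) = 0
  swap
  · -- odd characteristic
    have hneg : negOne 1 F ∈ kbar K := hB ▸ ⟨-1, neg_ne_zero.mpr one_ne_zero, by rw [negOne_mulVec, neg_one_smul]⟩
    obtain ⟨x0, hx0⟩ := exists_conj_lift K hneg (r := 2) negOne_sq (by exact_mod_cast h2) (negOne_fpf h2)
    set K' := conjSub (qS x0 0) K
    have hl : ∀ g ∈ kbar K, ∃ z : F, qS (0 : W) z * levi g ∈ K' := fun g hg =>
      lift_comm hx0 (negOne_fpf h2) (by rw [kbar_conjSub]; exact hg) (negOne_comm g)
    refine root_false (K := K') hK.conjSub hx fun c => ?_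
    have hne : (a : F) ^ 2 - 1 ≠ 0 := sub_ne_zero.mpr ha
    obtain ⟨z, hz⟩ := hl _ (htmem a)
    obtain ⟨z', hz'⟩ := hl _ (hspmem (c / ((a : F) ^ 2 - 1)))
    have h := lift_commutator hz hz'
    rw [conj_spT, htx, spT_smul, spT_inv, ← spT_add] at h
    convert h using 3
    field_simp
    ring
  -- characteristic two
  obtain hbig | hA : Nat.card (scal K) * Nat.card (aSub K) + 2 ≤ q ∨ Nat.card (aSub K) = 1 := by
    have := phi_even hK h2
    have h0 : 0 < Nat.card (aSub K) := Nat.card_pos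
    omega
  · refine lt_irrefl _ ((count_lt K hidx).trans_le (le_trans (Nat.mul_le_mul_right _
      (show Nat.card (scal K) * Nat.card (aSub K) ≤ q - 2 by omega)) ?_))
    rw [hτ]
    refine le_trans ?_ (Nat.mul_le_mul_left _ (Nat.mul_le_mul_right q hidxK))
    rw [show (2 * (1 + 1)) = 4 from rfl, pts_four]
    obtain ⟨p, hp⟩ : ∃ p, q = p + 4 := ⟨q - 4, by omega⟩
    rw [hp, show p + 4 - 2 = p + 2 by omega, show p + 4 - 1 = p + 3 by omega]
    nlinarith
  have hA0 : ∀ z ∈ aSub K, z = 0 := fun z hz => by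
    have := (Nat.card_eq_one_iff_unique.mp hA).1
    exact congrArg Subtype.val (Subsingleton.elim (⟨z, hz⟩ : aSub K) 0)
  have hfpf : ∀ z : W, (tor a : Mn) *ᵥ z = z → z = 0 := by
    intro z hz
    have h := congrArg (fun v => ((h0⁻¹ : Ln) : Mn) *ᵥ v) hz
    simp only [tor, mul_mulVec, inv_mulVec_cancel] at h
    have := torEl_fpf _ (fun _ => ha1) _ h
    exact (mulVec_injective h0⁻¹) (by simpa using this)
  have htorpow : ∀ b : Fˣ, tor b ^ (q - 1) = 1 := fun b => by
    simp only [tor]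
    rw [conj_pow, torEl_pow_pred, mul_one, mul_inv_cancel]
  obtain ⟨x0, hd⟩ := exists_conj_lift K (htmem a) (htorpow a) cast_pred_ne_zero hfpf
  set K' := conjSub (qS x0 0) K
  have hK' : NoRoot K' := hK.conjSub
  have hline' : ∀ r : W, r ∈ rbar K' ↔ ∃ c : F, r = c • x := by rw [rbar_conjSub]; exact hline
  have hkb : kbar K' = kbar K := kbar_conjSub _ _
  have hA' : ∀ z ∈ aSub K', z = 0 := fun z hz => hA0 z (by
    have h := mem_conjSub.mp (mem_aSub.mp hz)
    rw [qS_inv, qS_mul, qS_mul] at h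
    simp only [neg_zero, add_zero, zero_add, form_zero_right, neg_add_cancel, form_neg_left, form_self] at h
    exact h)
  have htor : ∀ b : Fˣ, levi (tor b) ∈ K' := fun b => by
    obtain ⟨z, hz⟩ := lift_comm hd hfpf (hkb ▸ htmem b) (by
      simp only [tor]
      rw [show h0 * torEl (fun _ => a) * h0⁻¹ * (h0 * torEl (fun _ => b) * h0⁻¹) =
        h0 * (torEl (fun _ => a) * torEl (fun _ => b)) * h0⁻¹ by group, torEl_comm]
      group)
    exact lift_torsion hz (htorpow b) cast_pred_ne_zero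
  -- the radical is `qS (t • x) 0`
  have hR : ∀ t : F, qS (t • x) (0 : F) ∈ K' := by
    choose f hf using fun t : F => mem_rbar.mp ((hline' (t • x)).mpr ⟨t, rfl⟩)
    have hadd : ∀ s t : F, f (s + t) = f s + f t := fun s t => by
      have h := K'.mul_mem (hf s) (hf t)
      rw [qS_mul, ← add_smul, form_smul_left, form_smul_right, form_self, mul_zero, mul_zero, add_zero] at h
      exact sub_eq_zero.mp (hA' _ (sub_mem_aSub (hf (s + t)) h))
    have hscale : ∀ (b : Fˣ) (t : F), f ((b : F) * t) = f t := fun b t => by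
      have h := K'.mul_mem (K'.mul_mem (htor b) (hf t)) (K'.inv_mem (htor b))
      rw [levi_conj_qS, mulVec_smul, htx, smul_smul, mul_comm t] at h
      exact sub_eq_zero.mp (hA' _ (sub_mem_aSub (hf _) h))
    intro t
    by_cases ht : t = 0
    · rw [ht, zero_smul, qS_zero]; exact K'.one_mem
    have e1 := hadd t ((a : F) * t)
    have hat : t + (a : F) * t ≠ 0 := fun e => ha (by
      have h' : (1 + (a : F)) * t = 0 := by linear_combination e
      have h'' : (a : F) = 1 := by linear_combination ((mul_eq_zero.mp h').resolve_right ht) - h2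
      rw [h'', one_pow])
    have e2 := hscale (Units.mk0 ((t + (a : F) * t) / t) (div_ne_zero hat ht)) t
    rw [Units.val_mk0, div_mul_cancel₀ _ ht] at e2
    rw [e2, hscale a t] at e1
    have h0 : f t = 0 := by linear_combination -e1
    exact h0 ▸ hf t
  -- the transvection lifts
  obtain ⟨w, z, hk⟩ := mem_kbar.mp (show spT x (1 : F) ∈ kbar K' from hkb ▸ hspmem 1)
  have hw : w = Bn w y • x + Bn x w • y := by
    have e := eq_smul_of_form_zero hxy (z := w - Bn x w • y) (by rw [form_sub_right, form_smul_right, hxy]; ring)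
    rw [form_sub_left, form_smul_left, form_self, mul_zero, sub_zero] at e
    linear_combination (norm := module) e
  set b := Bn x w
  have hk1 := K'.mul_mem (hR (-Bn w y)) hk
  rw [← mul_assoc, qS_mul, show -Bn w y • x + w = b • y by linear_combination (norm := module) hw] at hk1
  generalize 0 + z + Bn (-Bn w y • x) w = z' at hk1
  have hfix1 : (spT x (1 : F) : Mn) *ᵥ (b • y) = b • y + b • x := by
    rw [spT_mulVec, form_smul_left, form_swap y x, hxy]
    linear_combination (norm := module) (-(b • x) : W) * 0 + two_eq_zero_add_self h2 ((-b) • x) - two_eq_zero_add_self h2 ((-b) • x) + two_eq_zero_add_self h2 ((-b) • x)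
  have hsq := K'.mul_mem hk1 hk1
  rw [qS_levi_mul, ← spT_add, show (1 : F) + 1 = 0 from one_add_one_eq_two.trans h2, spT_zero, map_one, mul_one, hfix1, ← add_assoc,
    two_eq_zero_add_self h2 (b • y), zero_add, two_eq_zero_add_self h2 z', zero_add] at hsq
  simp only [form_add_right, form_smul_right, form_smul_left, form_self, mul_zero, zero_add, form_swap y x, hxy] at hsq
  have hb0 := hA' _ (sub_mem_aSub hsq (hR b))
  have hb : b = 0 := by
    have : b ^ 2 = 0 := by linear_combination -hb0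
    exact pow_eq_zero_iff two_ne_zero |>.mp this
  rw [hb, zero_smul] at hk1
  have hfam : ∀ l : F, l ≠ 0 → qS ((l * 0) • x) z' * levi (spT x (l ^ 2)) ∈ K' := by
    intro l hl
    have h := K'.mul_mem (K'.mul_mem (htor (Units.mk0 l hl)) hk1) (K'.inv_mem (htor (Units.mk0 l hl)))
    rw [show levi (tor (Units.mk0 l hl)) * (qS 0 z' * levi (spT x (1 : F))) * (levi (tor (Units.mk0 l hl)))⁻¹ =
      levi (tor (Units.mk0 l hl)) * qS 0 z' * (levi (tor (Units.mk0 l hl)))⁻¹ *
        (levi (tor (Units.mk0 l hl)) * levi (spT x (1 : F)) * (levi (tor (Units.mk0 l hl)))⁻¹) by group, levi_conj_qS,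
      ← map_inv, ← map_mul, ← map_mul, conj_spT, htx, spT_smul, mul_one, mulVec_zero, Units.val_mk0] at h
    rwa [mul_zero, zero_smul]
  have hz0 := hA' _ (square_family_mem h2 hq 0 x (form_self x) z' hfam)
  refine root_false hK' hx fun c => ?_
  by_cases hc : c = 0
  · rw [hc, spT_zero, map_one]; exact K'.one_mem
  obtain ⟨l, rfl⟩ := isSquare_all h2 c
  have h := hfam l (fun e => hc (by rw [e]; simp))
  rwa [mul_zero, zero_smul, hz0, qS_zero, one_mul] at h

/-- `Sp_4`: the image is proper. -/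
theorem one_false (hq : 4 ≤ q) (K : Subgroup Gs) (hK : NoRoot K) (hidx : K.index < pts q 4) (hk : kbar K ≠ ⊤)
    (hr : rbar K ≠ ⊤) : False := by
  obtain ⟨I, hI⟩ : ∃ I, I = (kbar K).index := ⟨_, rfl⟩
  obtain ⟨τ, hτ⟩ : ∃ τ, τ = (rbar K).index := ⟨_, rfl⟩
  obtain ⟨ρ, hρ⟩ : ∃ ρ, ρ = Nat.card (rbar K) := ⟨_, rfl⟩
  have hρτ : ρ * τ = q ^ 2 := by rw [hρ, hτ, AddSubgroup.card_mul_index, card_W]
  have hκ : Nat.card (kbar K) * I = q * (q ^ 2 - 1) := by rw [hI, Subgroup.card_mul_index, card_L1]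
  obtain ⟨p, hp⟩ : ∃ p, q = p + 1 := ⟨q - 1, by omega⟩
  have hsq1 : q ^ 2 - 1 = p * (p + 2) := by
    rw [hp, show (p + 1) ^ 2 = p * (p + 2) + 1 by ring]; simp
  obtain ⟨ψ, hψ⟩ := exists_char_ne_one (F := F)
  rcases Nat.lt_or_ge τ q with hτq | hτq
  · -- many translates of the annihilator
    have h := cover_bound K ψ hψ hr
    rw [← hI, ← hτ, mul_one, hsq1] at h
    have h1 : τ ≠ 1 := fun e => hr (AddSubgroup.index_eq_one.mp (hτ ▸ e))
    have h0 : τ ≠ 0 := hτ ▸ AddSubgroup.index_ne_zero_of_finite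
    have hpp : ∃ ℓ k : ℕ, ℓ.Prime ∧ q = ℓ ^ k := by
      obtain ⟨ℓ, hℓ⟩ := CharP.exists F
      obtain ⟨k, hℓp, hk⟩ := FiniteField.card F ℓ
      exact ⟨ℓ, k, hℓp, hk⟩
    obtain ⟨ℓ, k, hℓ, hqk⟩ := hpp
    obtain ⟨j, hj, hτj⟩ := (Nat.dvd_prime_pow hℓ).mp (show τ ∣ ℓ ^ (2 * k) by
      rw [pow_mul', ← hqk, ← hρτ]; exact Dvd.intro_left _ rfl)
    have h2τ : 2 * τ ≤ q := by
      rw [hτj, hqk] at hτq ⊢
      have hjk : j < k := (Nat.pow_lt_pow_iff_right hℓ.one_lt).mp hτq
      calc 2 * ℓ ^ j ≤ ℓ * ℓ ^ j := Nat.mul_le_mul_right _ hℓ.two_le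
        _ = ℓ ^ (j + 1) := by ring
        _ ≤ ℓ ^ k := Nat.pow_le_pow_right hℓ.pos hjk
    obtain ⟨t, ht⟩ : ∃ t, τ = t + 2 := ⟨τ - 2, by omega⟩
    rw [ht] at h
    rw [show t + 2 - 1 = t + 1 by omega] at h
    rw [hp] at h2τ
    have hI2 : 2 * (p + 2) ≤ I := by
      by_contra hlt
      obtain ⟨s, hs1, hs2⟩ : ∃ s, I ≤ s ∧ s + 1 = 2 * (p + 2) := ⟨2 * (p + 2) - 1, by omega, by omega⟩
      have e2 : p * (p + 2) ≤ s * (t + 1) := h.trans (Nat.mul_le_mul_right _ hs1)
      nlinarith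
    have hbig : (p + 2) * (p + 2) ≤ I * τ := by
      rw [ht, show I * (t + 2) = I * (t + 1) + I by ring]
      calc (p + 2) * (p + 2) = p * (p + 2) + 2 * (p + 2) := by ring
        _ ≤ _ := Nat.add_le_add h hI2
    by_cases h2 : (2 : F) = 0
    · refine lt_irrefl _ ((count_lt K hidx).trans_le (le_trans (Nat.mul_le_mul_right _
        (show Nat.card (scal K) * Nat.card (aSub K) ≤ q - 1 by
          have := phi_even hK h2
          have h0 : 0 < Nat.card (aSub K) := Nat.card_pos
          omega)) ?_))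
      rw [← hI, ← hτ, show (2 * (1 + 1)) = 4 from rfl, pts_four, mul_assoc (q - 1)]
      refine Nat.mul_le_mul_left _ (le_trans ?_ (Nat.mul_le_mul_left _ hbig))
      rw [hp]
      nlinarith
    · have h' := sq_card_le (Cfsg.sympForm 1 F) form_add_right form_add_left (fun x c y => form_smul_right c x y)
        (fun x hx => eq_zero_of_form_eq_zero hx) (aSub K) (aSub_ne_top hK) (rbar K)
        fun x hx y hy => form_mem h2 hx hy
      rw [card_W, ← hρ, mul_one, ← hρτ] at h'
      have hle : ρ ≤ τ := Nat.le_of_mul_le_mul_left h' (hρ ▸ Nat.card_pos)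
      have : ρ * τ ≤ τ * τ := Nat.mul_le_mul_right _ hle
      rw [hρτ] at this
      have : τ * τ < q ^ 2 := by rw [pow_two]; exact Nat.mul_lt_mul'' hτq hτq
      omega
  -- it suffices that `2 q (q + 1) ≤ I τ`
  suffices hmain : 2 * q * (q + 1) ≤ I * τ by
    refine lt_irrefl _ ((count_lt K hidx).trans_le ?_)
    rw [← hI, ← hτ, show (2 * (1 + 1)) = 4 from rfl, pts_four]
    refine Nat.le_of_mul_le_mul_right (c := q + 1) ?_ (by omega)
    calc Nat.card (scal K) * Nat.card (aSub K) * ((q + 1) * (q ^ 2 + 1)) * (q + 1)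
        = Nat.card (scal K) * Nat.card (aSub K) * (q + 1) * ((q + 1) * (q ^ 2 + 1)) := by ring
      _ ≤ 2 * ((q - 1) * q) * ((q + 1) * (q ^ 2 + 1)) := Nat.mul_le_mul_right _ (phi_half hK)
      _ ≤ (q - 1) * q * (2 * q * (q + 1) * (q + 1)) := by
        have : q ^ 2 + 1 ≤ q * (q + 1) := by nlinarith
        calc 2 * ((q - 1) * q) * ((q + 1) * (q ^ 2 + 1)) ≤ 2 * ((q - 1) * q) * ((q + 1) * (q * (q + 1))) :=
              Nat.mul_le_mul_left _ (Nat.mul_le_mul_left _ this)
          _ = _ := by ring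
      _ ≤ (q - 1) * q * (I * τ * (q + 1)) := Nat.mul_le_mul_left _ (Nat.mul_le_mul_right _ hmain)
      _ = (q - 1) * q * (I * τ) * (q + 1) := by ring
  -- small image of the radical
  have hρq : ρ ≤ q := by
    refine Nat.le_of_mul_le_mul_right (c := τ) ?_ (by omega)
    rw [hρτ, pow_two]
    exact Nat.mul_le_mul_left _ hτq
  by_cases h0 : ∀ r ∈ rbar K, r = 0
  · have hρ1 : ρ = 1 := by
      rw [hρ]
      haveI : Subsingleton (rbar K) := ⟨fun a b => Subtype.ext ((h0 _ a.2).trans (h0 _ b.2).symm)⟩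
      exact Nat.card_unique
    rw [hρ1, one_mul] at hρτ
    rw [hρτ]
    calc 2 * q * (q + 1) ≤ 3 * q ^ 2 := by nlinarith
      _ ≤ I * q ^ 2 := Nat.mul_le_mul_right _ (hI ▸ index_kbar_ge_three hq K hk)
  push Not at h0
  obtain ⟨x, hxR, hx⟩ := h0
  obtain ⟨y, hxy⟩ := exists_form_eq_one hx
  -- reduce to a bound on the order of the image
  have fin : ∀ c : ℕ, Nat.card (kbar K) * ρ ≤ c → c * (2 * q * (q + 1)) ≤ q * (q ^ 2 - 1) * q ^ 2 → 0 < c →
      2 * q * (q + 1) ≤ I * τ := by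
    intro c h1 h2 hc
    refine Nat.le_of_mul_le_mul_left (h2.trans ?_) hc
    calc q * (q ^ 2 - 1) * q ^ 2 = (Nat.card (kbar K) * ρ) * (I * τ) := by rw [← hκ, ← hρτ]; ring
      _ ≤ c * (I * τ) := Nat.mul_le_mul_right _ h1
  have hc_ok : ∀ c : ℕ, 2 * c ≤ p * (q * q) → c * (2 * q * (q + 1)) ≤ q * (q ^ 2 - 1) * q ^ 2 := by
    intro c hc
    rw [hsq1]
    calc c * (2 * q * (q + 1)) = 2 * c * (q * (q + 1)) := by ring
      _ ≤ p * (q * q) * (q * (q + 1)) := Nat.mul_le_mul_right _ hc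
      _ = q * (p * (p + 2)) * q ^ 2 := by rw [hp]; ring
  let S : AddSubgroup F :=
    { carrier := {s | s • x ∈ rbar K}
      add_mem' := fun {a b} ha hb => by
        show (a + b) • x ∈ rbar K
        rw [add_smul]; exact (rbar K).add_mem ha hb
      zero_mem' := by show (0 : F) • x ∈ rbar K; rw [zero_smul]; exact (rbar K).zero_mem
      neg_mem' := fun {a} ha => by show (-a) • x ∈ rbar K; rw [neg_smul]; exact (rbar K).neg_mem ha }
  have hSle : Nat.card S ≤ ρ := hρ ▸ Nat.card_le_card_of_injective (fun s : S => (⟨s.1 • x, s.2⟩ : rbar K))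
    fun a b h => Subtype.ext (smul_left_injective F hx (congrArg Subtype.val h))
  by_cases hl : ∀ r ∈ rbar K, Bn x r = 0
  · -- inside a line
    have hrx : ∀ r ∈ rbar K, r = Bn r y • x := fun r hr' => eq_smul_of_form_zero hxy (hl r hr')
    have hρS : ρ ≤ Nat.card S := hρ ▸ Nat.card_le_card_of_injective
      (fun r : rbar K => (⟨Bn r.1 y, show Bn r.1 y • x ∈ rbar K from by rw [← hrx r.1 r.2]; exact r.2⟩ : S))
      fun a b h => Subtype.ext (by rw [hrx a.1 a.2, hrx b.1 b.2, show Bn a.1 y = Bn b.1 y from congrArg Subtype.val h])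
    let Sc : Set F := {c | c ≠ 0 ∧ ∀ s ∈ S, c * s ∈ S}
    have hscal : ∀ g ∈ kbar K, ∃ c ∈ Sc, c ≠ 0 ∧ (g : Mn) *ᵥ x = c • x := by
      intro g hg
      have e := hrx _ (kbar_rbar hg hxR)
      set c := Bn ((g : Mn) *ᵥ x) y
      have hc : c ≠ 0 := fun e0 => mulVec_ne_zero g hx (by rw [e, e0, zero_smul])
      refine ⟨c, ⟨hc, fun s hs => ?_⟩, hc, e⟩
      show (c * s) • x ∈ rbar K
      have h := kbar_rbar hg (r := s • x) hs
      rwa [mulVec_smul, e, smul_smul, mul_comm] at h
    have hkb := card_le_scalars hxy (kbar K) Sc hscal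
    by_cases hS : S = ⊤
    · have hline : ∀ r : W, r ∈ rbar K ↔ ∃ a : F, r = a • x := fun r => ⟨fun h => ⟨_, hrx r h⟩,
        fun ⟨a, ha⟩ => ha ▸ (show a ∈ S from hS ▸ trivial)⟩
      have hle : kbar K ≤ borel x := fun g hg => by
        obtain ⟨c, -, hc, e⟩ := hscal g hg
        exact ⟨c, hc, e⟩
      by_cases hB : kbar K = borel x
      · exact (borel_false hq K hK hidx hxy hline hB).elim
      have hlt : 2 * Nat.card (kbar K) ≤ p * q := by
        have hb := card_borel_le hxy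
        rw [hp, Nat.add_sub_cancel] at hb
        rw [hp]
        refine le_trans ?_ hb
        obtain ⟨d, hd⟩ := Subgroup.card_dvd_of_le hle
        have hd1 : d ≠ 1 := fun e => hB (Subgroup.eq_of_le_of_card_ge hle (by rw [hd, e, mul_one]))
        have hd0 : d ≠ 0 := fun e => by
          have : 0 < Nat.card (borel x) := Nat.card_pos
          rw [hd, e, mul_zero] at this
          exact lt_irrefl 0 this
        rw [hd, mul_comm]
        exact Nat.mul_le_mul_left _ (by omega)
      refine fin _ le_rfl (hc_ok _ ?_) (Nat.mul_pos Nat.card_pos (hρ ▸ Nat.card_pos))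
      calc 2 * (Nat.card (kbar K) * ρ) = 2 * Nat.card (kbar K) * ρ := by ring
        _ ≤ p * q * q := Nat.mul_le_mul hlt hρq
        _ = p * (q * q) := by ring
    · have hb := card_scalar_stab S hS Sc fun c hc => hc
      have h0 : 0 < Nat.card S := Nat.card_pos
      refine fin _ le_rfl (hc_ok _ ?_) (Nat.mul_pos Nat.card_pos (hρ ▸ Nat.card_pos))
      calc 2 * (Nat.card (kbar K) * ρ) ≤ 2 * (Nat.card Sc * q * Nat.card S) :=
            Nat.mul_le_mul_left _ (Nat.mul_le_mul hkb hρS)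
        _ ≤ 2 * (p * q) := by
            refine Nat.mul_le_mul_left _ ?_
            rw [mul_right_comm]
            refine Nat.mul_le_mul_right _ ?_
            rw [add_one_mul, hp] at hb
            omega
        _ ≤ p * (q * q) := by
            calc 2 * (p * q) = p * (2 * q) := by ring
              _ ≤ _ := Nat.mul_le_mul_left _ (Nat.mul_le_mul_right _ (by omega))
  -- spanning the plane
  push Not at hl
  obtain ⟨y', hyR, hy'⟩ := hl
  have hS2 : 2 * Nat.card S ≤ ρ := by
    rw [hρ, mul_comm, ← Nat.card_eq_fintype_card (α := Bool) |>.trans Fintype.card_bool, ← Nat.card_prod]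
    refine Nat.card_le_card_of_injective
      (fun p : S × Bool => (⟨p.1.1 • x + (if p.2 then y' else 0), (rbar K).add_mem p.1.2 (by
        split_ifs
        · exact hyR
        · exact (rbar K).zero_mem)⟩ : rbar K)) ?_
    rintro ⟨s, b⟩ ⟨t, c⟩ h
    have h' : s.1 • x + (if b then y' else 0) = t.1 • x + (if c then y' else 0) := congrArg Subtype.val h
    have hb : b = c := by
      have e := congrArg (fun v => Bn x v) h'
      simp only [form_add_right, form_smul_right, form_self, mul_zero, zero_add] at e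
      rcases b <;> rcases c <;> simp [form_zero_right, hy', Ne.symm hy'] at e ⊢
    subst hb
    exact Prod.ext (Subtype.ext (smul_left_injective F hx (add_right_cancel h'))) rfl
  have hkS : Nat.card (kbar K) ≤ (ρ - 1) * Nat.card S := by
    rw [Nat.card_eq_fintype_card, ← Finset.card_univ]
    set f : kbar K → W := fun g => ((g : Ln) : Mn) *ᵥ x
    refine (Finset.card_le_mul_card_image (f := f) Finset.univ (Nat.card S) fun a ha => ?_).trans ?_
    · obtain ⟨g0, -, rfl⟩ := Finset.mem_image.mp ha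
      rw [← Fintype.card_subtype, ← Nat.card_eq_fintype_card]
      have hmem : ∀ g : kbar K, f g = f g0 → ∀ (w : W), w = (((g0⁻¹ * g : kbar K) : Ln) : Mn) *ᵥ y' - y' →
          Bn w y • x ∈ rbar K ∧ w = Bn w y • x := by
        intro g hg w hw
        have hfix : (((g0⁻¹ * g : kbar K) : Ln) : Mn) *ᵥ x = x := by
          rw [Subgroup.coe_mul, Subgroup.coe_inv, mul_mulVec, show ((g : Ln) : Mn) *ᵥ x = _ from hg, inv_mulVec_cancel]
        have hw0 : Bn x w = 0 := by
          rw [hw, form_sub_right]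
          conv_lhs => arg 1; rw [← hfix]
          rw [form_mulVec, sub_self]
        have e := eq_smul_of_form_zero hxy hw0
        exact ⟨e ▸ hw ▸ (rbar K).sub_mem (kbar_rbar (g0⁻¹ * g).2 hyR) hyR, e⟩
      refine Nat.card_le_card_of_injective (fun g : {g : kbar K // f g = f g0} =>
        (⟨Bn ((((g0⁻¹ * g.1 : kbar K) : Ln) : Mn) *ᵥ y' - y') y, (hmem g.1 g.2 _ rfl).1⟩ : S)) ?_
      intro a b h
      have h' := congrArg Subtype.val h
      have e : (((g0⁻¹ * a.1 : kbar K) : Ln) : Mn) *ᵥ y' = (((g0⁻¹ * b.1 : kbar K) : Ln) : Mn) *ᵥ y' := by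
        rw [← sub_left_inj (a := y'), (hmem a.1 a.2 _ rfl).2, (hmem b.1 b.2 _ rfl).2]
        exact congrArg (· • x) h'
      refine Subtype.ext (mul_left_cancel (a := g0⁻¹) (Subtype.ext (symp_ext fun z => ?_)))
      have ex : (((g0⁻¹ * a.1 : kbar K) : Ln) : Mn) *ᵥ x = (((g0⁻¹ * b.1 : kbar K) : Ln) : Mn) *ᵥ x := by
        simp only [Subgroup.coe_mul, mul_mulVec]
        rw [show ((a.1 : Ln) : Mn) *ᵥ x = ((b.1 : Ln) : Mn) *ᵥ x from a.2.trans b.2.symm]
      have hxy2 : Bn x ((Bn x y')⁻¹ • y') = 1 := by rw [form_smul_right, inv_mul_cancel₀ hy']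
      have e2 := eq_smul_of_form_zero hxy2 (z := z - (Bn x z * (Bn x y')⁻¹) • y') (by
        rw [form_sub_right, form_smul_right, mul_assoc, inv_mul_cancel₀ hy', mul_one, sub_self])
      rw [eq_add_of_sub_eq e2]
      simp only [mulVec_add, mulVec_smul, e, ex]
    · rw [mul_comm]
      refine Nat.mul_le_mul_right _ ?_
      rw [hρ, Nat.card_eq_fintype_card (α := rbar K)]
      refine (Finset.card_le_card (t := (Finset.univ.filter fun r => r ∈ rbar K).erase 0) ?_).trans (le_of_eq ?_)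
      · intro r hr'
        obtain ⟨g, -, rfl⟩ := Finset.mem_image.mp hr'
        exact Finset.mem_erase.mpr ⟨mulVec_ne_zero _ hx, Finset.mem_filter.mpr ⟨Finset.mem_univ _, kbar_rbar g.2 hxR⟩⟩
      · rw [Finset.card_erase_of_mem (Finset.mem_filter.mpr ⟨Finset.mem_univ _, (rbar K).zero_mem⟩),
          ← Fintype.card_subtype]
  refine fin _ le_rfl (hc_ok _ ?_) (Nat.mul_pos Nat.card_pos (hρ ▸ Nat.card_pos))
  calc 2 * (Nat.card (kbar K) * ρ) ≤ 2 * ((ρ - 1) * Nat.card S * ρ) :=
        Nat.mul_le_mul_left _ (Nat.mul_le_mul_right _ hkS)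
    _ = (ρ - 1) * (2 * Nat.card S) * ρ := by ring
    _ ≤ (ρ - 1) * ρ * ρ := Nat.mul_le_mul_right _ (Nat.mul_le_mul_left _ hS2)
    _ ≤ p * q * q := Nat.mul_le_mul (Nat.mul_le_mul (by omega) hρq) hρq
    _ = p * (q * q) := by ring

end One

end CfsgLib.MinIndexPSp
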