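import Cfsg.Agent.MinIndexPSp.Basic
import Cfsg.Agent.MinIndexSp.TwoBasic

/-!
Subgroups of `Sp_2m(q)`, `q ≥ 3`, with an invariant subspace or containing a full root group: the index is at
least the number of points.
-/

set_option autoImplicit false
set_option linter.unusedSectionVars false

open scoped Classical

namespace CfsgLib.MinIndexPSp

open Matrix CfsgLib.Classical.Symp

/-- `1 + q + ⋯ + q^(k-1)`. -/
def pts (q k : ℕ) : ℕ := ∑ i ∈ Finset.range k, q ^ i

theorem pts_mul (q k : ℕ) : pts (q + 1) k * q + 1 = (q + 1) ^ k := geom_sum_mul_add q k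

theorem pts_mul_pred {q : ℕ} (hq : 1 ≤ q) (k : ℕ) : pts q k * (q - 1) = q ^ k - 1 := by
  obtain ⟨r, rfl⟩ : ∃ r, q = r + 1 := ⟨q - 1, by omega⟩
  have := pts_mul r k
  simp only [Nat.add_sub_cancel]
  omega

theorem block_count {q d k m : ℕ} (hq : 3 ≤ q) (hd : 0 < d) (hk : k * d ≤ 2 * m) (hk2 : 2 ≤ k) :
    k * (q ^ d - 1) ≤ (q - 1) * q ^ (2 * m - d) := by
  rcases Nat.lt_or_ge k 3 with h3 | h3
  · obtain rfl : k = 2 := by omega
    exact Nat.mul_le_mul (by omega) ((Nat.sub_le _ _).trans (Nat.pow_le_pow_right (by omega) (by omega)))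
  · have hkq : k ≤ q ^ ((k - 2) * d) := by
      calc k ≤ 3 ^ (k - 2) := by
            obtain ⟨j, rfl⟩ : ∃ j, k = j + 3 := ⟨k - 3, by omega⟩
            clear hk h3
            induction j with
            | zero => norm_num
            | succ i ih => rw [show i + 1 + 3 - 2 = (i + 3 - 2) + 1 by omega, pow_succ]; omega
        _ ≤ q ^ (k - 2) := Nat.pow_le_pow_left hq _
        _ ≤ q ^ ((k - 2) * d) := Nat.pow_le_pow_right (by omega) (Nat.le_mul_of_pos_right _ hd)
    calc k * (q ^ d - 1) ≤ q ^ ((k - 2) * d) * q ^ d := Nat.mul_le_mul hkq (Nat.sub_le _ _)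
      _ = q ^ ((k - 1) * d) := by rw [← pow_add, ← Nat.succ_mul]; congr 2; omega
      _ ≤ q ^ (2 * m - d) := Nat.pow_le_pow_right (by omega) (by rw [Nat.sub_mul, one_mul]; omega)
      _ ≤ (q - 1) * q ^ (2 * m - d) := Nat.le_mul_of_pos_left _ (by omega)

theorem pts_mono (q : ℕ) {j k : ℕ} (h : j ≤ k) : pts q j ≤ pts q k :=
  Finset.sum_le_sum_of_subset (Finset.range_mono h)

section Gen

variable {m : ℕ} {F : Type*} [Field F] [Fintype F]

local notation "B" => Cfsg.sympForm m F
local notation "Mat" => Matrix (Fin m ⊕ Fin m) (Fin m ⊕ Fin m) F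
local notation "V" => (Fin m ⊕ Fin m → F)
local notation "G" => Matrix.symplecticGroup (Fin m) F
local notation "q" => Fintype.card F
local notation "bf" => CfsgLib.MinIndexSp.bform m F

/-- Index bound from the orbit of a vector and representatives inside its stabiliser. -/
theorem index_ge_of_vec (K : Subgroup G) {v : V} (hv : v ≠ 0) (C : Finset V)
    (hC : ∀ k ∈ K, (k : Mat) *ᵥ v ∈ C) {ι : Type*} [Finite ι] (φ : ι → vecStab v)
    (hφ : ∀ a b, ((φ a : G))⁻¹ * φ b ∈ K → a = b) (hle : C.card ≤ (q - 1) * Nat.card ι) :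
    pts q (2 * m) ≤ K.index := by
  set Kv := K ⊓ vecStab v
  have h1 : Nat.card K ≤ C.card * Nat.card Kv := by
    rw [Subgroup.card_eq_card_quotient_mul_card_subgroup (Kv.subgroupOf K),
      Nat.card_congr (Subgroup.subgroupOfEquivOfLe (show Kv ≤ K from inf_le_left)).toEquiv]
    refine Nat.mul_le_mul_right _ ?_
    rw [← Nat.card_eq_finsetCard C]
    refine Nat.card_le_card_of_injective (Quotient.lift
      (fun k : K => (⟨((k : G) : Mat) *ᵥ v, hC k k.2⟩ : C)) fun a b hab => ?_) ?_
    · have h : ((a⁻¹ * b : K) : G) ∈ Kv := Subgroup.mem_subgroupOf.mp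
        (QuotientGroup.leftRel_apply.mp (show QuotientGroup.leftRel (Kv.subgroupOf K) a b from hab))
      have h2 := mem_vecStab.mp h.2
      rw [Subgroup.coe_mul, Subgroup.coe_inv, mul_mulVec] at h2
      refine Subtype.ext ?_
      show ((a : G) : Mat) *ᵥ v = _
      conv_lhs => rw [← h2, mulVec_inv_cancel]
    · intro a b
      induction a using QuotientGroup.induction_on with
      | _ a =>
        induction b using QuotientGroup.induction_on with
        | _ b =>
          intro h
          have h' : ((a : G) : Mat) *ᵥ v = ((b : G) : Mat) *ᵥ v := congrArg (fun p => p.1) h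
          rw [QuotientGroup.eq, Subgroup.mem_subgroupOf]
          refine ⟨(a⁻¹ * b).2, mem_vecStab.mpr ?_⟩
          rw [Subgroup.coe_mul, Subgroup.coe_inv, mul_mulVec, ← h', inv_mulVec_cancel]
  have h2 : Nat.card ι * Nat.card Kv ≤ Nat.card (vecStab v) := by
    rw [← Nat.card_prod]
    refine Nat.card_le_card_of_injective
      (fun p : ι × Kv => (⟨(φ p.1 : G) * p.2.1, Subgroup.mul_mem _ (φ p.1).2 p.2.2.2⟩ : vecStab v)) ?_
    rintro ⟨a, k⟩ ⟨b, l⟩ h
    have h' : (φ a : G) * k.1 = φ b * l.1 := congrArg (fun p => p.1) h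
    have hab : a = b := hφ a b (by
      have : ((φ a : G))⁻¹ * φ b = k.1 * (l.1)⁻¹ := by
        rw [eq_mul_inv_iff_mul_eq, mul_assoc, ← h', inv_mul_cancel_left]
      rw [this]; exact K.mul_mem k.2.1 (K.inv_mem l.2.1))
    subst hab
    exact Prod.ext rfl (Subtype.ext (mul_left_cancel h'))
  have h3 := K.card_mul_index
  rw [card_eq_mul_card_vecStab hv, ← pts_mul_pred Fintype.card_pos] at h3
  have hC0 : 0 < C.card := Finset.card_pos.mpr ⟨_, hC 1 K.one_mem⟩
  have hKv : 0 < Nat.card Kv := Nat.card_pos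
  refine Nat.le_of_mul_le_mul_right (c := C.card * Nat.card Kv) ?_ (Nat.mul_pos hC0 hKv)
  calc pts q (2 * m) * (C.card * Nat.card Kv)
      ≤ pts q (2 * m) * ((q - 1) * (Nat.card ι * Nat.card Kv)) := by
        refine Nat.mul_le_mul_left _ ?_
        rw [← mul_assoc]; exact Nat.mul_le_mul_right _ hle
    _ ≤ pts q (2 * m) * ((q - 1) * Nat.card (vecStab v)) := Nat.mul_le_mul_left _ (Nat.mul_le_mul_left _ h2)
    _ = Nat.card K * K.index := by rw [h3, mul_assoc]
    _ ≤ C.card * Nat.card Kv * K.index := Nat.mul_le_mul_right _ h1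
    _ = K.index * (C.card * Nat.card Kv) := mul_comm _ _

/-- A subspace is mapped to itself by every element of `K`. -/
def InvSub (K : Subgroup G) (U : Submodule F V) : Prop := ∀ k ∈ K, ∀ x ∈ U, (k : Mat) *ᵥ x ∈ U

/-- The orthogonal of a subspace. -/
noncomputable def perp (U : Submodule F V) : Submodule F V := (bf).orthogonal U

theorem mem_perp {U : Submodule F V} {x : V} : x ∈ perp U ↔ ∀ u ∈ U, B u x = 0 := Iff.rfl

theorem perp_perp (U : Submodule F V) : perp (perp U) = U :=
  LinearMap.BilinForm.orthogonal_orthogonal CfsgLib.MinIndexSp.bform_nondeg CfsgLib.MinIndexSp.bform_refl U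

theorem InvSub.perp {K : Subgroup G} {U : Submodule F V} (h : InvSub K U) : InvSub K (perp U) := by
  intro k hk x hx
  rw [mem_perp] at hx ⊢
  intro u hu
  have hu' := hx _ (h k⁻¹ (K.inv_mem hk) u hu)
  rw [← form_mulVec k, mulVec_inv_cancel] at hu'
  exact hu'

theorem inf_perp_eq_bot {U : Submodule F V} (h : NondegOn U) : U ⊓ perp U = ⊥ := by
  rw [Submodule.eq_bot_iff]
  rintro x ⟨hx, hx'⟩
  by_contra h0
  obtain ⟨y, hy, hxy⟩ := h x hx h0
  exact hxy (form_eq_zero_comm.mp (mem_perp.mp hx' y hy))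

theorem isCompl_perp {U : Submodule F V} (h : NondegOn U) : IsCompl U (perp U) :=
  (LinearMap.BilinForm.isCompl_orthogonal_iff_disjoint CfsgLib.MinIndexSp.bform_refl).mpr
    (disjoint_iff.mpr (inf_perp_eq_bot h))

theorem exists_decomp {U : Submodule F V} (h : NondegOn U) (x : V) : ∃ u ∈ U, ∃ w ∈ perp U, x = u + w := by
  obtain ⟨u, hu, w, hw, e⟩ := Submodule.mem_sup.mp
    ((isCompl_perp h).sup_eq_top ▸ Submodule.mem_top : x ∈ U ⊔ perp U)
  exact ⟨u, hu, w, hw, e.symm⟩

theorem nondegOn_perp {U : Submodule F V} (h : NondegOn U) : NondegOn (perp U) := by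
  intro x hx hx0
  by_contra hh
  push Not at hh
  have : x ∈ perp (perp U) := mem_perp.mpr fun y hy => form_eq_zero_comm.mp (hh y hy)
  rw [perp_perp] at this
  have h' : x ∈ U ⊓ perp U := ⟨this, hx⟩
  rw [inf_perp_eq_bot h] at h'
  exact hx0 ((Submodule.mem_bot F).mp h')

theorem card_vec : Nat.card V = q ^ (2 * m) := by
  rw [Nat.card_eq_fintype_card, Fintype.card_fun, Fintype.card_sum, Fintype.card_fin, two_mul]

/-- The orbit of a vector of a nondegenerate subspace. -/
theorem index_ge_nondeg (K : Subgroup G) {U : Submodule F V} (hU : NondegOn U) {v : V} (hv : v ≠ 0) (hvU : v ∈ U)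
    (hfix : ∀ k ∈ K, (k : Mat) *ᵥ v = v → ∀ x ∈ U, (k : Mat) *ᵥ x ∈ U) (C : Finset V)
    (hC : ∀ k ∈ K, (k : Mat) *ᵥ v ∈ C) (hle : C.card ≤ (q - 1) * Nat.card (perp U)) :
    pts q (2 * m) ≤ K.index := by
  have hB : ∀ w : perp U, B v w.1 = 0 := fun w => mem_perp.mp w.2 v hvU
  refine index_ge_of_vec K hv C hC (fun w : perp U => ⟨qEl v w.1 0, qEl_mulVec_self (hB w) 0⟩) ?_ hle
  intro a b hab
  simp only at hab
  rw [qEl_inv (hB a), neg_zero, qEl_mul (by rw [form_neg_right, hB a, neg_zero]) (hB b)] at hab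
  have hd : B v (-a.1 + b.1) = 0 := by rw [form_add_right, form_neg_right, hB a, hB b, neg_zero, add_zero]
  have hdm : -a.1 + b.1 ∈ perp U := (perp U).add_mem ((perp U).neg_mem a.2) b.2
  obtain ⟨y, hy, hvy⟩ := hU v hvU hv
  have h := hfix _ hab (qEl_mulVec_self hd _) y hy
  rw [qEl_mulVec hd] at h
  have h' := U.sub_mem (U.sub_mem h (U.smul_mem ((0 + 0 + B (-a.1) b.1) * B v y + B (-a.1 + b.1) y) hvU)) hy
  have h'' : B v y • (-a.1 + b.1) ∈ U ⊓ perp U :=
    ⟨by
      refine (show ∀ {p r : V}, p = r → r ∈ U → p ∈ U from fun e hr => e ▸ hr) ?_ h'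
      module, (perp U).smul_mem _ hdm⟩
  rw [inf_perp_eq_bot hU, Submodule.mem_bot, smul_eq_zero] at h''
  exact Subtype.ext (neg_add_eq_zero.mp (h''.resolve_left hvy))

theorem card_eq_pow (U : Submodule F V) : Nat.card U = q ^ Module.finrank F U := by
  rw [Module.natCard_eq_pow_finrank (K := F), Nat.card_eq_fintype_card]

theorem finrank_add_perp (U : Submodule F V) : Module.finrank F U + Module.finrank F (perp U) = 2 * m := by
  have h := LinearMap.BilinForm.finrank_orthogonal (CfsgLib.MinIndexSp.bform_nondeg (m := m) (F := F)) U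
  have h' := Submodule.finrank_le U
  rw [Module.finrank_fintype_fun_eq_card, Fintype.card_sum, Fintype.card_fin] at h h'
  show _ + Module.finrank F ((bf).orthogonal U) = _
  omega

theorem index_ge_of_nondeg_inv (hq : 3 ≤ q) (K : Subgroup G) {U : Submodule F V} (hK : InvSub K U)
    (hU : NondegOn U) (h0 : U ≠ ⊥) (h1 : perp U ≠ ⊥) : pts q (2 * m) ≤ K.index := by
  wlog hd : Module.finrank F U ≤ Module.finrank F (perp U) generalizing U
  · refine this hK.perp (nondegOn_perp hU) h1 (by rwa [perp_perp]) ?_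
    rw [perp_perp]; omega
  obtain ⟨v, hvU, hv⟩ := Submodule.exists_mem_ne_zero_of_ne_bot h0
  refine index_ge_nondeg K hU hv hvU (fun k hk _ => hK k hk) (Finset.univ.filter fun x => x ∈ U)
    (fun k hk => Finset.mem_filter.mpr ⟨Finset.mem_univ _, hK k hk v hvU⟩) ?_
  rw [← Fintype.card_subtype, ← Nat.card_eq_fintype_card, card_eq_pow (perp U)]
  calc Nat.card {x // x ∈ U} = q ^ Module.finrank F U := card_eq_pow U
    _ ≤ q ^ Module.finrank F (perp U) := Nat.pow_le_pow_right Fintype.card_pos hd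
    _ ≤ (q - 1) * _ := Nat.le_mul_of_pos_left _ (by omega)

end Gen

section Iso

variable {F : Type*} [Field F] [Fintype F]

local notation "q" => Fintype.card F

/-- A subgroup stabilising a nonzero totally isotropic subspace. -/
theorem index_ge_of_isotropic : ∀ {m : ℕ} (K : Subgroup (Matrix.symplecticGroup (Fin m) F))
    (I : Submodule F (Fin m ⊕ Fin m → F)), InvSub K I → I ≠ ⊥ →
    (∀ x ∈ I, ∀ y ∈ I, Cfsg.sympForm m F x y = 0) → pts q (2 * m) ≤ K.index := by
  intro m
  induction m with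
  | zero => intro K I _ h0; exact absurd (Subsingleton.elim _ _) h0
  | succ n ih =>
    intro K I hK h0 hiso
    obtain ⟨v, hvI, hv⟩ := Submodule.exists_mem_ne_zero_of_ne_bot h0
    -- move `v` to the standard point
    obtain ⟨g, hg⟩ := exists_symp_mulVec_eq hv (e0_ne (n := n) (F := F))
    let K' := K.map (MulAut.conj g).toMonoidHom
    let I' := I.map (Matrix.toLin' (g : Matrix (Fin (n + 1) ⊕ Fin (n + 1)) (Fin (n + 1) ⊕ Fin (n + 1)) F))
    have hidx : K'.index = K.index := Subgroup.index_map_equiv K (MulAut.conj g)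
    rw [← hidx]
    have hK' : InvSub K' I' := by
      rintro k' ⟨k, hk, rfl⟩ x' ⟨x, hx, rfl⟩
      refine ⟨(k : Matrix (Fin (n + 1) ⊕ Fin (n + 1)) (Fin (n + 1) ⊕ Fin (n + 1)) F) *ᵥ x, hK k hk x hx, ?_⟩
      simp only [Matrix.toLin'_apply, MulEquiv.coe_toMonoidHom, MulAut.conj_apply, mul_mulVec, inv_mulVec_cancel]
    have hiso' : ∀ x ∈ I', ∀ y ∈ I', Cfsg.sympForm (n + 1) F x y = 0 := by
      rintro _ ⟨x, hx, rfl⟩ _ ⟨y, hy, rfl⟩
      simp only [Matrix.toLin'_apply, form_mulVec]
      exact hiso x hx y hy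
    have heI : (e0 : Fin (n + 1) ⊕ Fin (n + 1) → F) ∈ I' := ⟨v, hvI, by rw [Matrix.toLin'_apply, hg]⟩
    clear_value K' I'
    clear hidx hg g hv hvI v h0 hK hiso K I
    -- the quotient by the point
    set J := I'.map (outV : (Fin (n + 1) ⊕ Fin (n + 1) → F) →ₗ[F] _)
    have horth : ∀ y ∈ I', Cfsg.sympForm (n + 1) F e0 y = 0 := fun y hy => hiso' _ heI _ hy
    have hcard : Nat.card I' ≤ q * Nat.card J := by
      rw [← Nat.card_eq_fintype_card (α := F), ← Nat.card_prod]
      refine Nat.card_le_card_of_injective (fun y : I' => ((Cfsg.sympForm (n + 1) F y.1 f0,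
        (⟨outV y.1, Submodule.mem_map_of_mem y.2⟩ : J)))) ?_
      intro a b h
      simp only [Prod.mk.injEq, Subtype.mk.injEq] at h
      apply Subtype.ext
      rw [vec_eq a.1, vec_eq b.1, horth _ a.2, horth _ b.2, h.1, h.2]
    have hJiso : ∀ x ∈ J, ∀ y ∈ J, Cfsg.sympForm n F x y = 0 := by
      rintro _ ⟨x, hx, rfl⟩ _ ⟨y, hy, rfl⟩
      rw [form_outV (horth _ hx) (horth _ hy)]
      exact hiso' x hx y hy
    let C : Finset (Fin (n + 1) ⊕ Fin (n + 1) → F) := (Finset.univ.filter fun x => x ∈ I').erase 0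
    have hC : ∀ k ∈ K', (k : Matrix (Fin (n + 1) ⊕ Fin (n + 1)) (Fin (n + 1) ⊕ Fin (n + 1)) F) *ᵥ e0 ∈ C := fun k hk => Finset.mem_erase.mpr
      ⟨mulVec_ne_zero k e0_ne, Finset.mem_filter.mpr ⟨Finset.mem_univ _, hK' k hk _ heI⟩⟩
    have hCc : C.card + 1 = Nat.card I' := by
      rw [Finset.card_erase_add_one (Finset.mem_filter.mpr ⟨Finset.mem_univ _, I'.zero_mem⟩),
        ← Fintype.card_subtype, ← Nat.card_eq_fintype_card]
    by_cases hJ : J = ⊥
    · refine index_ge_of_vec K' e0_ne C hC (fun _ : Unit => 1) (fun _ _ _ => rfl) ?_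
      rw [hJ, Nat.card_unique (α := (⊥ : Submodule F (Fin n ⊕ Fin n → F))), mul_one] at hcard
      rw [Nat.card_unique, mul_one]
      omega
    -- the stabiliser of `J`
    let S : Subgroup (Matrix.symplecticGroup (Fin n) F) :=
      { carrier := {a | ∀ x, x ∈ J ↔ (a : Matrix (Fin n ⊕ Fin n) (Fin n ⊕ Fin n) F) *ᵥ x ∈ J}
        one_mem' := fun x => by simp
        mul_mem' := fun {a b} ha hb x => by rw [mul_mulVec, ← ha, ← hb]
        inv_mem' := fun {a} ha x => by
          rw [ha (((a⁻¹ : Matrix.symplecticGroup (Fin n) F) : Matrix (Fin n ⊕ Fin n) (Fin n ⊕ Fin n) F) *ᵥ x), mulVec_inv_cancel] }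
    have hS : InvSub S J := fun a ha x hx => (ha x).mp hx
    have hSidx := ih S J hS hJ hJiso
    refine index_ge_of_vec K' e0_ne C hC
      (fun c : Matrix.symplecticGroup (Fin n) F ⧸ S => ⟨levi c.out, levi_mem_vecStab _⟩) ?_ ?_
    · intro a b hab
      simp only [← map_inv, ← map_mul] at hab
      have key : ∀ l, levi l ∈ K' → ∀ x ∈ J, (l : Matrix (Fin n ⊕ Fin n) (Fin n ⊕ Fin n) F) *ᵥ x ∈ J := by
        rintro l hl x ⟨y, hy, rfl⟩
        refine ⟨_, hK' _ hl y hy, ?_⟩
        rw [levi_apply, liftSp_mulVec, outV_liftLin]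
      have hmem : a.out⁻¹ * b.out ∈ S := fun x => ⟨key _ hab x, fun hx => by
        have h' := key (a.out⁻¹ * b.out)⁻¹ (by rw [map_inv]; exact K'.inv_mem hab) _ hx
        rwa [inv_mulVec_cancel] at h'⟩
      rw [← QuotientGroup.out_eq' a, ← QuotientGroup.out_eq' b, QuotientGroup.eq]
      exact hmem
    · -- count
      rw [show Nat.card (Matrix.symplecticGroup (Fin n) F ⧸ S) = S.index from rfl]
      have hn : 0 < n := by
        rcases Nat.eq_zero_or_pos n with rfl | h
        · exact absurd (Subsingleton.elim _ _) hJ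
        · exact h
      have hJt : J ≠ ⊤ := fun e => by
        haveI : NeZero n := ⟨by omega⟩
        have := hJiso (stdE 0) (e ▸ trivial) (stdF 0) (e ▸ trivial)
        rw [form_stdE_stdF, if_pos rfl] at this
        exact one_ne_zero this
      have hfr : Module.finrank F J + 1 ≤ 2 * n := by
        have := Submodule.finrank_lt hJt
        rw [Module.finrank_fintype_fun_eq_card, Fintype.card_sum, Fintype.card_fin] at this
        omega
      rw [card_eq_pow J, ← pow_succ'] at hcard
      have h4 : C.card ≤ q ^ (Module.finrank F J + 1) - 1 := by omega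
      rw [← pts_mul_pred Fintype.card_pos] at h4
      refine h4.trans ?_
      rw [mul_comm]
      exact Nat.mul_le_mul_left _ ((pts_mono _ hfr).trans hSidx)

end Iso

section Blocks

variable {m : ℕ} {F : Type*} [Field F] [Fintype F]

local notation "B" => Cfsg.sympForm m F
local notation "Mat" => Matrix (Fin m ⊕ Fin m) (Fin m ⊕ Fin m) F
local notation "V" => (Fin m ⊕ Fin m → F)
local notation "G" => Matrix.symplecticGroup (Fin m) F
local notation "q" => Fintype.card F

theorem index_ge_of_invSub (hq : 3 ≤ q) (K : Subgroup G) {U : Submodule F V} (hK : InvSub K U)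
    (h0 : U ≠ ⊥) (h1 : U ≠ ⊤) : pts q (2 * m) ≤ K.index := by
  by_cases hI : U ⊓ perp U = ⊥
  · have hU : NondegOn U := fun x hx hx0 => by
      by_contra hh
      push Not at hh
      have h' : x ∈ U ⊓ perp U := ⟨hx, mem_perp.mpr fun y hy => form_eq_zero_comm.mp (hh y hy)⟩
      rw [hI, Submodule.mem_bot] at h'
      exact hx0 h'
    refine index_ge_of_nondeg_inv hq K hK hU h0 fun e => h1 ?_
    have := (isCompl_perp hU).sup_eq_top
    rwa [e, sup_bot_eq] at this
  · exact index_ge_of_isotropic K (U ⊓ perp U) (fun k hk x hx => ⟨hK k hk x hx.1, hK.perp k hk x hx.2⟩) hI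
      fun x hx y hy => mem_perp.mp hy.2 x hx.1

/-- The vectors whose whole root group lies in `K`. -/
def RootIn (K : Subgroup G) (v : V) : Prop := ∀ c : F, spT v c ∈ K

theorem RootIn.zero (K : Subgroup G) : RootIn K 0 := fun c => by rw [spT_zero_left]; exact K.one_mem

theorem RootIn.smul {K : Subgroup G} {v : V} (h : RootIn K v) (a : F) : RootIn K (a • v) := fun c => by
  rw [spT_smul]; exact h _

theorem RootIn.map {K : Subgroup G} {v : V} (h : RootIn K v) {k : G} (hk : k ∈ K) :
    RootIn K ((k : Mat) *ᵥ v) := fun c => by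
  rw [← conj_spT]; exact K.mul_mem (K.mul_mem hk (h c)) (K.inv_mem hk)

theorem RootIn.comb {K : Subgroup G} {x y : V} (hx : RootIn K x) (hy : RootIn K y) (hxy : B x y ≠ 0) (a b : F) :
    RootIn K (a • x + b • y) := by
  by_cases hb : b = 0
  · rw [hb, zero_smul, add_zero]; exact hx.smul a
  have h := (hy.map (hx (a / (b * B y x)))).smul b
  rw [spT_mulVec, smul_add, smul_smul] at h
  have hyx : B y x ≠ 0 := fun e => hxy (form_eq_zero_comm.mp e)
  rw [show b * (a / (b * B y x) * B y x) = a by field_simp, add_comm] at h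
  exact h

/-- A block: a nondegenerate subspace of root vectors containing every root vector not orthogonal to it. -/
def IsBlock (K : Subgroup G) (U : Submodule F V) : Prop :=
  NondegOn U ∧ U ≠ ⊥ ∧ (∀ x ∈ U, RootIn K x) ∧ ∀ x, RootIn K x → x ∈ U ∨ x ∈ perp U

theorem IsBlock.eq_or_le {K : Subgroup G} {U U' : Submodule F V} (h : IsBlock K U) (h' : IsBlock K U') :
    U = U' ∨ U' ≤ perp U := by
  have key : ∀ {U U' : Submodule F V}, IsBlock K U → IsBlock K U' → U' ≤ U ∨ U' ≤ perp U := by
    intro U U' h h'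
    by_contra hh
    rw [not_or, SetLike.not_le_iff_exists, SetLike.not_le_iff_exists] at hh
    obtain ⟨⟨a, ha, ha'⟩, b, hb, hb'⟩ := hh
    have ha2 := (h.2.2.2 a (h'.2.2.1 a ha)).resolve_left ha'
    have hb2 := (h.2.2.2 b (h'.2.2.1 b hb)).resolve_right hb'
    rcases h.2.2.2 (a + b) (h'.2.2.1 _ (U'.add_mem ha hb)) with e | e
    · exact ha' (by simpa using U.sub_mem e hb2)
    · exact hb' (by simpa using (perp U).sub_mem e ha2)
  rcases key h h' with e | e
  · rcases key h' h with e' | e'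
    · exact Or.inl (le_antisymm e' e)
    · exfalso
      have h2 : U' ≤ U' ⊓ perp U' := le_inf le_rfl (e.trans e')
      rw [inf_perp_eq_bot h'.1, le_bot_iff] at h2
      exact h'.2.1 h2
  · exact Or.inr e

theorem IsBlock.map {K : Subgroup G} {U : Submodule F V} (h : IsBlock K U) {k : G} (hk : k ∈ K) :
    IsBlock K (U.map (Matrix.toLin' (k : Mat))) := by
  obtain ⟨h1, h2, h3, h4⟩ := h
  refine ⟨?_, ?_, ?_, fun x hx => ?_⟩
  · rintro _ ⟨x, hx, rfl⟩ hx0
    obtain ⟨y, hy, hxy⟩ := h1 x hx (fun e => hx0 (by rw [e, map_zero]))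
    exact ⟨_, Submodule.mem_map_of_mem hy, by rwa [Matrix.toLin'_apply, Matrix.toLin'_apply, form_mulVec]⟩
  · intro e
    obtain ⟨x, hx, hx0⟩ := Submodule.exists_mem_ne_zero_of_ne_bot h2
    exact mulVec_ne_zero k hx0 ((Submodule.mem_bot F).mp (e ▸ Submodule.mem_map_of_mem hx))
  · rintro _ ⟨x, hx, rfl⟩
    exact (h3 x hx).map hk
  · have e := mulVec_inv_cancel k x
    rcases h4 _ (hx.map (K.inv_mem hk)) with e' | e'
    · exact Or.inl ⟨_, e', e⟩
    · refine Or.inr (mem_perp.mpr ?_)
      rintro _ ⟨u, hu, rfl⟩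
      rw [← e, Matrix.toLin'_apply, form_mulVec]
      exact mem_perp.mp e' u hu

theorem exists_block (hq : 3 ≤ q) (K : Subgroup G) (hspan : Submodule.span F {x | RootIn K x} = ⊤) (hm : 0 < m) :
    ∃ U, IsBlock K U := by
  obtain ⟨k, hk0, hk1⟩ : ∃ k : F, k ≠ 0 ∧ k ≠ 1 := by
    obtain ⟨k, -, hk⟩ := Finset.exists_mem_notMem_of_card_lt_card (t := (Finset.univ : Finset F))
      (s := ({0, 1} : Finset F)) (by rw [Finset.card_univ]; exact lt_of_le_of_lt Finset.card_le_two (by omega))
    simp only [Finset.mem_insert, Finset.mem_singleton, not_or] at hk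
    exact ⟨k, hk.1, hk.2⟩
  have hex : ∀ x : V, x ≠ 0 → ∃ s, RootIn K s ∧ B x s ≠ 0 := by
    intro x hx
    by_contra h
    push Not at h
    refine hx (eq_zero_of_form_eq_zero fun y => ?_)
    have hy : y ∈ Submodule.span F {x | RootIn K x} := hspan ▸ Submodule.mem_top
    induction hy using Submodule.span_induction with
    | mem s hs => exact h s hs
    | zero => exact form_zero_right x
    | add a b _ _ ha hb => rw [form_add_right, ha, hb, add_zero]
    | smul c a _ ha => rw [form_smul_right, ha, mul_zero]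
  let P : Finset (Submodule F V) := Finset.univ.filter fun U => NondegOn U ∧ U ≠ ⊥ ∧ ∀ x ∈ U, RootIn K x
  have hP : P.Nonempty := by
    obtain ⟨a, ha0⟩ : ∃ a : V, a ≠ 0 := ⟨stdE ⟨0, hm⟩, fun e => by simpa [stdE] using congrFun e (Sum.inr ⟨0, hm⟩)⟩
    obtain ⟨x, hx, hax⟩ := hex a ha0
    have hx0 : x ≠ 0 := fun e => hax (by rw [e, form_zero_right])
    obtain ⟨y, hy, hxy⟩ := hex x hx0
    refine ⟨Submodule.span F {x, y}, Finset.mem_filter.mpr ⟨Finset.mem_univ _, ?_, ?_, ?_⟩⟩
    · intro z hz hz0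
      obtain ⟨a, b, rfl⟩ := Submodule.mem_span_pair.mp hz
      by_cases hb : b = 0
      · refine ⟨y, Submodule.subset_span (by simp), ?_⟩
        rw [hb, zero_smul, add_zero, form_smul_left]
        exact mul_ne_zero (fun e => hz0 (by rw [e, hb, zero_smul, zero_smul, add_zero])) hxy
      · refine ⟨x, Submodule.subset_span (by simp), ?_⟩
        rw [form_add_left, form_smul_left, form_smul_left, form_self, mul_zero, zero_add]
        exact mul_ne_zero hb fun e => hxy (form_eq_zero_comm.mp e)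
    · exact fun e => hx0 ((Submodule.mem_bot F).mp (e ▸ Submodule.subset_span (by simp)))
    · intro z hz
      obtain ⟨a, b, rfl⟩ := Submodule.mem_span_pair.mp hz
      exact hx.comb hy hxy a b
  obtain ⟨U, hUP, hmax⟩ := P.exists_maximal hP
  obtain ⟨hU, hU0, hUS⟩ := (Finset.mem_filter.mp hUP).2
  refine ⟨U, hU, hU0, hUS, fun s hs => ?_⟩
  by_contra hh
  push Not at hh
  obtain ⟨u0, hu0, w, hw, rfl⟩ := exists_decomp hU s
  have hu00 : u0 ≠ 0 := fun e => hh.2 (by rw [e, zero_add]; exact hw)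
  have hw0 : w ≠ 0 := fun e => hh.1 (by rw [e, add_zero]; exact hu0)
  have orth : ∀ u ∈ U, ∀ z ∈ perp U, B u z = 0 := fun u hu z hz => mem_perp.mp hz u hu
  have step : ∀ z ∈ perp U, ∀ u ∈ U, RootIn K (u + z) → ∀ u' ∈ U, B u u' ≠ 0 → RootIn K (u' + z) := by
    intro z hz u hu h u' hu' hne
    have h2 := h.comb (hUS (u' - u) (U.sub_mem hu' hu)) (by
      rw [form_add_left, form_eq_zero_comm.mp (orth _ (U.sub_mem hu' hu) _ hz), add_zero, form_sub_right, form_self,
        sub_zero]
      exact hne) 1 1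
    rwa [one_smul, one_smul, show u + z + (u' - u) = u' + z by abel] at h2
  have spread : ∀ z ∈ perp U, ∀ u ∈ U, u ≠ 0 → RootIn K (u + z) → ∀ u' ∈ U, u' ≠ 0 → RootIn K (u' + z) := by
    intro z hz u hu hu0' h u' hu' hu'0
    by_cases hne : B u u' = 0
    · obtain ⟨a, ha, hua⟩ := hU u hu hu0'
      obtain ⟨b, hb, hub⟩ := hU u' hu' hu'0
      obtain ⟨c, hc, h1, h2⟩ : ∃ c ∈ U, B u c ≠ 0 ∧ B u' c ≠ 0 := by
        by_cases p : B u' a = 0
        · by_cases p' : B u b = 0
          · exact ⟨a + b, U.add_mem ha hb, by rwa [form_add_right, p', add_zero], by rwa [form_add_right, p, zero_add]⟩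
          · exact ⟨b, hb, p', hub⟩
        · exact ⟨a, ha, hua, p⟩
      exact step z hz c hc (step z hz u hu h c hc h1) u' hu' fun e => h2 (form_eq_zero_comm.mp e)
    · exact step z hz u hu h u' hu' hne
  obtain ⟨s2, hs2, hws2⟩ := hex w hw0
  obtain ⟨u2, hu2, w2, hw2, rfl⟩ := exists_decomp hU s2
  rw [form_add_right, form_eq_zero_comm.mp (orth u2 hu2 w hw), zero_add] at hws2
  -- a partner whose translates of `U` are root vectors
  obtain ⟨w3, hw3, hβ, h3⟩ : ∃ w3 ∈ perp U, B w w3 ≠ 0 ∧ ∀ u ∈ U, u ≠ 0 → RootIn K (u + w3) := by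
    by_cases hu20 : u2 = 0
    · rw [hu20, zero_add] at hs2
      refine ⟨w + w2, (perp U).add_mem hw hw2, by rwa [form_add_right, form_self, zero_add],
        spread _ ((perp U).add_mem hw hw2) u0 hu0 hu00 ?_⟩
      have h2 := hs.comb hs2 (by rwa [form_add_left, orth u0 hu0 w2 hw2, zero_add]) 1 1
      rwa [one_smul, one_smul, add_assoc] at h2
    · exact ⟨w2, hw2, hws2, spread w2 hw2 u2 hu2 hu20 hs2⟩
  have hT : ∀ z ∈ perp U, (∀ u ∈ U, u ≠ 0 → RootIn K (u + z)) → ∀ a : F, a ≠ 0 → ∀ u ∈ U, u ≠ 0 →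
      RootIn K (u + a • z) := by
    intro z _ h a ha u hu hu0'
    have := (h (a⁻¹ • u) (U.smul_mem _ hu) (smul_ne_zero (inv_ne_zero ha) hu0')).smul a
    rwa [smul_add, smul_smul, mul_inv_cancel₀ ha, one_smul] at this
  have hTw := hT w hw (spread w hw u0 hu0 hu00 hs)
  have hT3 := hT w3 hw3 h3
  have both : ∀ u ∈ U, ∀ a b : F, a ≠ 0 → b ≠ 0 → RootIn K (u + (a • w + b • w3)) := by
    intro u hu a b ha hb
    obtain ⟨ua, hua, hua0, ub, hub, hub0, hs', h0⟩ :
        ∃ ua ∈ U, ua ≠ 0 ∧ ∃ ub ∈ U, ub ≠ 0 ∧ ua + ub = u ∧ B ua ub = 0 := by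
      by_cases hu0' : u = 0
      · exact ⟨u0, hu0, hu00, -u0, U.neg_mem hu0, neg_ne_zero.mpr hu00, by rw [add_neg_cancel, hu0'],
          by rw [form_neg_right, form_self, neg_zero]⟩
      · exact ⟨k • u, U.smul_mem _ hu, smul_ne_zero hk0 hu0', (1 - k) • u, U.smul_mem _ hu,
          smul_ne_zero (sub_ne_zero.mpr (Ne.symm hk1)) hu0', by rw [← add_smul, add_sub_cancel, one_smul],
          by rw [form_smul_left, form_smul_right, form_self, mul_zero, mul_zero]⟩
    have h2 := (hTw a ha ua hua hua0).comb (hT3 b hb ub hub hub0) (by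
      simp only [form_add_left, form_add_right, form_smul_left, form_smul_right, h0, orth ua hua w3 hw3,
        form_eq_zero_comm.mp (orth ub hub w hw), mul_zero, zero_add, add_zero]
      exact mul_ne_zero hb (mul_ne_zero ha hβ)) 1 1
    rw [one_smul, one_smul] at h2
    convert h2 using 1
    rw [← hs']; abel
  have all : ∀ u ∈ U, ∀ a b : F, RootIn K (u + (a • w + b • w3)) := by
    intro u hu a b
    by_cases hu0' : u = 0
    · subst hu0'
      rw [zero_add]
      have e1 := both 0 U.zero_mem 1 1 one_ne_zero one_ne_zero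
      have e2 := both 0 U.zero_mem 1 k one_ne_zero hk0
      rw [zero_add, one_smul, one_smul] at e1
      rw [zero_add, one_smul] at e2
      have h2 := e1.comb e2 (by
        simp only [form_add_left, form_add_right, form_smul_right, form_self, mul_zero, zero_add, add_zero,
          form_swap w3 w]
        rw [show -B w w3 + k * B w w3 = (k - 1) * B w w3 by ring]
        exact mul_ne_zero (sub_ne_zero.mpr hk1) hβ) (a - (b - a) / (k - 1)) ((b - a) / (k - 1))
      convert h2 using 1
      have hk' : k - 1 ≠ 0 := sub_ne_zero.mpr hk1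
      match_scalars <;> field_simp <;> ring
    by_cases ha : a = 0
    · by_cases hb : b = 0
      · rw [ha, hb]; simpa using hUS u hu
      · rw [ha, zero_smul, zero_add]; exact hT3 b hb u hu hu0'
    · by_cases hb : b = 0
      · rw [hb, zero_smul, add_zero]; exact hTw a ha u hu hu0'
      · exact both u hu a b ha hb
  have hU'P : U ⊔ Submodule.span F {w, w3} ∈ P := by
    refine Finset.mem_filter.mpr ⟨Finset.mem_univ _, ?_, fun e => hU0 (le_bot_iff.mp (le_sup_left.trans e.le)), ?_⟩
    · intro z hz hz0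
      obtain ⟨u, hu, p, hp, rfl⟩ := Submodule.mem_sup.mp hz
      obtain ⟨a, b, rfl⟩ := Submodule.mem_span_pair.mp hp
      by_cases hu0' : u = 0
      · subst hu0'
        rw [zero_add] at hz0 ⊢
        by_cases hb : b = 0
        · refine ⟨w3, Submodule.mem_sup_right (Submodule.subset_span (by simp)), ?_⟩
          rw [hb, zero_smul, add_zero, form_smul_left]
          exact mul_ne_zero (fun e => hz0 (by rw [e, hb, zero_smul, zero_smul, add_zero])) hβ
        · refine ⟨w, Submodule.mem_sup_right (Submodule.subset_span (by simp)), ?_⟩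
          rw [form_add_left, form_smul_left, form_smul_left, form_self, mul_zero, zero_add]
          exact mul_ne_zero hb fun e => hβ (form_eq_zero_comm.mp e)
      · obtain ⟨y, hy, huy⟩ := hU u hu hu0'
        refine ⟨y, Submodule.mem_sup_left hy, ?_⟩
        rwa [form_add_left, form_eq_zero_comm.mp (orth y hy _ ((perp U).add_mem ((perp U).smul_mem a hw)
          ((perp U).smul_mem b hw3))), add_zero]
    · intro z hz
      obtain ⟨u, hu, p, hp, rfl⟩ := Submodule.mem_sup.mp hz
      obtain ⟨a, b, rfl⟩ := Submodule.mem_span_pair.mp hp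
      exact all u hu a b
  have hle := hmax hU'P le_sup_left
  have hwU : w ∈ U ⊓ perp U := ⟨hle (Submodule.mem_sup_right (Submodule.subset_span (by simp))), hw⟩
  rw [inf_perp_eq_bot hU, Submodule.mem_bot] at hwU
  exact hw0 hwU

theorem finset_orth_dim {K : Subgroup G} (s : Finset (Submodule F V)) (hs : ∀ U ∈ s, IsBlock K U) :
    ∑ U ∈ s, Module.finrank F U ≤ Module.finrank F (s.sup id : Submodule F V) := by
  induction s using Finset.induction with
  | empty => simp
  | insert U t hU ih =>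
    have ht : ∀ W ∈ t, IsBlock K W := fun W hW => hs W (Finset.mem_insert_of_mem hW)
    have hb := hs U (Finset.mem_insert_self _ _)
    have hle : t.sup id ≤ perp U := Finset.sup_le fun W hW =>
      (hb.eq_or_le (ht W hW)).resolve_left fun e => hU (e ▸ hW)
    have hd : U ⊓ t.sup id = ⊥ := le_bot_iff.mp ((inf_le_inf_left U hle).trans (inf_perp_eq_bot hb.1).le)
    rw [Finset.sum_insert hU, Finset.sup_insert, id_eq]
    have := Submodule.finrank_sup_add_finrank_inf_eq U (t.sup id)
    rw [hd, finrank_bot, add_zero] at this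
    have := ih ht
    omega

theorem eq_top_of_all_roots (K : Subgroup G) (h : ∀ x, RootIn K x) : K = ⊤ :=
  eq_top_iff.mpr fun g _ => symp_induction (P := fun g => g ∈ K) K.one_mem (fun v c => h v c)
    (fun _ _ ha hb => K.mul_mem ha hb) g

/-- A proper subgroup containing a full root group has index at least the number of points. -/
theorem index_ge_of_root (hq : 3 ≤ q) (hm : 0 < m) (K : Subgroup G) (hK : K ≠ ⊤) {v : V} (hv : v ≠ 0)
    (hroot : ∀ c, spT v c ∈ K) : pts q (2 * m) ≤ K.index := by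
  set U := Submodule.span F {x | RootIn K x} with hUdef
  have hinv : InvSub K U := by
    intro k hk x hx
    induction hx using Submodule.span_induction with
    | mem s hs => exact Submodule.subset_span (RootIn.map hs hk)
    | zero => simp
    | add a b _ _ ha hb => rw [mulVec_add]; exact U.add_mem ha hb
    | smul c a _ ha => rw [mulVec_smul]; exact U.smul_mem c ha
  by_cases htop : U = ⊤
  swap
  · exact index_ge_of_invSub hq K hinv
      (fun e => hv ((Submodule.mem_bot F).mp (e ▸ Submodule.subset_span (show RootIn K v from hroot)))) htop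
  let Bl : Finset (Submodule F V) := Finset.univ.filter fun U => IsBlock K U
  obtain ⟨U1, hU1⟩ := exists_block hq K htop hm
  obtain ⟨U0, hU0, hmin⟩ := Bl.exists_min_image (fun U => Module.finrank F U)
    ⟨U1, Finset.mem_filter.mpr ⟨Finset.mem_univ _, hU1⟩⟩
  have hb : IsBlock K U0 := (Finset.mem_filter.mp hU0).2
  obtain ⟨x, hx, hx0⟩ := Submodule.exists_mem_ne_zero_of_ne_bot hb.2.1
  set d := Module.finrank F U0 with hd
  set Bd := Bl.filter fun (W : Submodule F V) => Module.finrank F W = d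
  have hsum := finset_orth_dim Bd fun U hU => (Finset.mem_filter.mp (Finset.mem_filter.mp hU).1).2
  rw [Finset.sum_congr rfl fun U hU => (Finset.mem_filter.mp hU).2, Finset.sum_const, smul_eq_mul] at hsum
  have hV : Module.finrank F V = 2 * m := by
    rw [Module.finrank_fintype_fun_eq_card, Fintype.card_sum, Fintype.card_fin, two_mul]
  have hkd : Bd.card * d ≤ 2 * m := hsum.trans (hV ▸ Submodule.finrank_le _)
  have hd0 : 0 < d := Submodule.one_le_finrank_iff.mpr hb.2.1
  -- a single block would make `K` everything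
  have hperp : perp U0 ≠ ⊥ := by
    intro e
    refine hK (eq_top_of_all_roots K fun z => hb.2.2.1 z ?_)
    have := (isCompl_perp hb.1).sup_eq_top
    rw [e, sup_bot_eq] at this
    rw [this]; exact Submodule.mem_top
  have hmem : ∀ k ∈ K, U0.map (Matrix.toLin' (k : Mat)) ∈ Bd := fun k hk => Finset.mem_filter.mpr
    ⟨Finset.mem_filter.mpr ⟨Finset.mem_univ _, hb.map hk⟩,
      (Submodule.equivMapOfInjective _ (fun a b h => mulVec_injective k h) U0).finrank_eq.symm⟩
  rcases Nat.lt_or_ge Bd.card 2 with hk1 | hk2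
  · refine index_ge_of_nondeg_inv hq K (U := U0) (fun k hk y hy => ?_) hb.1 hb.2.1 hperp
    have e := Finset.card_le_one.mp (by omega) _ (hmem k hk) U0
      (Finset.mem_filter.mpr ⟨hU0, rfl⟩)
    exact e ▸ Submodule.mem_map_of_mem (f := Matrix.toLin' (k : Mat)) hy
  refine index_ge_nondeg K hb.1 hx0 hx (fun k hk hkx y hy => ?_)
    (Bd.biUnion fun U => (Finset.univ.filter fun z => z ∈ U).erase 0) (fun k hk => ?_) ?_
  · rcases hb.eq_or_le (hb.map hk) with e | e
    · exact e ▸ Submodule.mem_map_of_mem (f := Matrix.toLin' (k : Mat)) hy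
    · exfalso
      have hxp : x ∈ U0 ⊓ perp U0 := ⟨hx, e ⟨x, hx, hkx⟩⟩
      rw [inf_perp_eq_bot hb.1, Submodule.mem_bot] at hxp
      exact hx0 hxp
  · exact Finset.mem_biUnion.mpr ⟨U0.map (Matrix.toLin' (k : Mat)), hmem k hk,
      Finset.mem_erase.mpr ⟨mulVec_ne_zero k hx0, Finset.mem_filter.mpr ⟨Finset.mem_univ _, x, hx, rfl⟩⟩⟩
  · refine (Finset.card_biUnion_le_card_mul _ _ (q ^ d - 1) fun U hU => ?_).trans ?_
    · rw [Finset.card_erase_of_mem (Finset.mem_filter.mpr ⟨Finset.mem_univ _, U.zero_mem⟩),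
        ← Fintype.card_subtype, ← Nat.card_eq_fintype_card, show Nat.card {z // z ∈ U} = Nat.card U from rfl,
        card_eq_pow, (Finset.mem_filter.mp hU).2]
    · rw [card_eq_pow (perp U0), show Module.finrank F (perp U0) = 2 * m - d by
        have := finrank_add_perp U0; omega]
      exact block_count hq hd0 hkd hk2

end Blocks

end CfsgLib.MinIndexPSp
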