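import Cfsg.Agent.MinIndexPSp.Lift

/-!
Numerical bounds, and the case in which the image in `Sp_2n` is everything.
-/

set_option autoImplicit false
set_option linter.unusedSectionVars false

open scoped Classical

namespace CfsgLib.MinIndexPSp

open Matrix CfsgLib.Classical.Symp

theorem pts_add_two (q k : ℕ) : pts q (k + 2) = q ^ 2 * pts q k + q + 1 := by
  simp only [pts]
  rw [Finset.sum_range_succ', Finset.sum_range_succ', Finset.mul_sum]
  simp only [pow_add, pow_zero, zero_add, pow_one]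
  rw [Finset.sum_congr rfl fun i _ => show q ^ i * q * q = q ^ 2 * q ^ i by ring]

theorem pts_two (q : ℕ) : pts q 2 = q + 1 := by simpa [pts] using pts_add_two q 0

theorem pts_four (q : ℕ) : pts q 4 = (q + 1) * (q ^ 2 + 1) := by
  rw [pts_add_two q 2, pts_two]; ring

theorem pts_lower {q n : ℕ} (hn : 1 ≤ n) : q + 1 ≤ pts q (2 * n) :=
  (pts_two q).symm.le.trans (pts_mono q (by omega))

variable {n : ℕ} {F : Type*} [Field F] [Fintype F]

local notation "Bn" => Cfsg.sympForm n F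
local notation "W" => (Fin n ⊕ Fin n → F)
local notation "V" => (Fin (n + 1) ⊕ Fin (n + 1) → F)
local notation "Mn" => Matrix (Fin n ⊕ Fin n) (Fin n ⊕ Fin n) F
local notation "Ms" => Matrix (Fin (n + 1) ⊕ Fin (n + 1)) (Fin (n + 1) ⊕ Fin (n + 1)) F
local notation "Gs" => Matrix.symplecticGroup (Fin (n + 1)) F
local notation "Ln" => Matrix.symplecticGroup (Fin n) F
local notation "q" => Fintype.card F

theorem scal_le (K : Subgroup Gs) : Nat.card (scal K) ≤ q - 1 := by
  rw [← Fintype.card_units, ← Nat.card_eq_fintype_card]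
  exact Nat.card_le_card_of_injective _ Subtype.val_injective

theorem phi_two {K : Subgroup Gs} (hK : NoRoot K) :
    Nat.card (scal K) * Nat.card (aSub K) * 2 ≤ (q - 1) * q := by
  rw [mul_assoc, mul_comm (Nat.card (aSub K)) 2]
  exact Nat.mul_le_mul (scal_le K) (card_addSubgroup_mul_two_le _ (aSub_ne_top hK))

theorem phi_half {K : Subgroup Gs} (hK : NoRoot K) :
    Nat.card (scal K) * Nat.card (aSub K) * (q + 1) ≤ 2 * ((q - 1) * q) := by
  obtain ⟨h1, -⟩ := card_sq_stab (aSub K) (aSub_ne_top hK) (scal K) fun μ hμ a ha => sq_mul_mem_aSub hμ ha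
  have h2 := scal_le K
  set γ := Nat.card (scal K)
  set α := Nat.card (aSub K)
  have hq : 1 ≤ q := Fintype.card_pos
  obtain ⟨p, hp⟩ : ∃ p, q = p + 1 := ⟨q - 1, by omega⟩
  have hp' : q - 1 = p := by omega
  rw [hp'] at h2 ⊢
  rw [hp] at h1 ⊢
  calc γ * α * (p + 1 + 1) = γ * α * p + γ * (2 * α) := by ring
    _ ≤ γ * α * p + p * (2 * α) := Nat.add_le_add_left (Nat.mul_le_mul_right _ h2) _
    _ = (γ + 2) * α * p := by ring
    _ ≤ 2 * (p + 1) * p := Nat.mul_le_mul_right _ h1
    _ = 2 * (p * (p + 1)) := by ring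

theorem phi_even {K : Subgroup Gs} (hK : NoRoot K) (h2 : (2 : F) = 0) :
    Nat.card (scal K) * Nat.card (aSub K) + Nat.card (aSub K) ≤ q := by
  obtain ⟨-, h⟩ := card_sq_stab (aSub K) (aSub_ne_top hK) (scal K) fun μ hμ a ha => sq_mul_mem_aSub hμ ha
  have := h h2
  rwa [add_one_mul] at this

theorem phi_prime {K : Subgroup Gs} (hK : NoRoot K) (hq : q = 3) :
    Nat.card (scal K) * Nat.card (aSub K) * 3 ≤ (q - 1) * q ∧ ∀ a ∈ aSub K, a = 0 := by
  have h := card_addSubgroup_mul_two_le _ (aSub_ne_top hK)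
  have h1 : Nat.card (aSub K) = 1 := by
    have : 0 < Nat.card (aSub K) := Nat.card_pos
    omega
  refine ⟨?_, fun a ha => ?_⟩
  · rw [h1, mul_one, hq]
    exact Nat.mul_le_mul_right 3 (by have := scal_le K; omega)
  · have := (Nat.card_eq_one_iff_unique.mp h1).1
    exact congrArg Subtype.val (Subsingleton.elim (⟨a, ha⟩ : aSub K) 0)

theorem exists_unit_sq_ne_one (hq : 4 ≤ q) : ∃ a : Fˣ, (a : F) ^ 2 ≠ 1 := by
  obtain ⟨a, -, ha⟩ := Finset.exists_mem_notMem_of_card_lt_card (t := (Finset.univ : Finset F))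
    (s := ({0, 1, -1} : Finset F)) (by rw [Finset.card_univ]; exact lt_of_le_of_lt Finset.card_le_three (by omega))
  simp only [Finset.mem_insert, Finset.mem_singleton, not_or] at ha
  exact ⟨Units.mk0 a ha.1, fun e => (sq_eq_one_iff.mp e).elim ha.2.1 ha.2.2⟩

/-- The diagonal element scaling the `i`-th pair by `a i`. -/
noncomputable def torEl (a : Fin n → Fˣ) : Ln :=
  ⟨Matrix.diagonal (Sum.elim (fun i => ((a i)⁻¹ : Fˣ).val) (fun i => (a i).val)), by
    rw [mem_symplecticGroup_iff_form]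
    intro x y
    simp only [form_apply, Matrix.mulVec_diagonal, Sum.elim_inl, Sum.elim_inr]
    refine Finset.sum_congr rfl fun i _ => ?_
    have := (a i).ne_zero
    simp only [Units.val_inv_eq_inv_val]
    field_simp⟩

theorem torEl_mulVec (a : Fin n → Fˣ) (x : W) (j : Fin n ⊕ Fin n) :
    ((torEl a : Mn) *ᵥ x) j = Sum.elim (fun i => ((a i)⁻¹ : Fˣ).val) (fun i => (a i).val) j * x j :=
  Matrix.mulVec_diagonal _ _ _

theorem torEl_mul (a b : Fin n → Fˣ) : torEl a * torEl b = torEl (a * b) := by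
  refine symp_ext fun x => funext fun j => ?_
  rw [mul_mulVec, torEl_mulVec, torEl_mulVec, torEl_mulVec]
  cases j <;> simp <;> ring

theorem torEl_comm (a b : Fin n → Fˣ) : torEl a * torEl b = torEl b * torEl a := by
  rw [torEl_mul, torEl_mul, mul_comm]

theorem torEl_stdE (a : Fin n → Fˣ) (i : Fin n) :
    (torEl a : Mn) *ᵥ stdE i = (a i : F) • stdE i := by
  funext j
  rw [torEl_mulVec]
  rcases j with j | j
  · simp [stdE]
  · by_cases h : j = i <;> simp [stdE, h]

theorem torEl_one : torEl (1 : Fin n → Fˣ) = 1 := by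
  refine symp_ext fun x => funext fun j => ?_
  rw [torEl_mulVec]
  cases j <;> simp

theorem torEl_pow_pred (a : Fin n → Fˣ) : torEl a ^ (q - 1) = 1 := by
  have hp : ∀ k : ℕ, torEl a ^ k = torEl (a ^ k) := by
    intro k
    induction k with
    | zero => rw [pow_zero, pow_zero, torEl_one]
    | succ j ih => rw [pow_succ, pow_succ, ih, torEl_mul]
  rw [hp, show a ^ (q - 1) = 1 from funext fun i => Units.ext (by
    simp only [Pi.pow_apply, Units.val_pow_eq_pow_val, Pi.one_apply, Units.val_one]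
    exact FiniteField.pow_card_sub_one_eq_one _ (a i).ne_zero), torEl_one]

theorem torEl_fpf (a : Fin n → Fˣ) (ha : ∀ i, a i ≠ 1) (x : W) (h : (torEl a : Mn) *ᵥ x = x) : x = 0 := by
  funext j
  have e := congrFun h j
  rw [torEl_mulVec] at e
  rcases j with i | i
  · by_contra h0
    simp only [Sum.elim_inl] at e
    exact ha i (inv_eq_one.mp (Units.ext ((mul_eq_right₀ h0).mp e)))
  · by_contra h0
    simp only [Sum.elim_inr] at e
    exact ha i (Units.ext ((mul_eq_right₀ h0).mp e))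

theorem cast_pred_ne_zero : ((q - 1 : ℕ) : F) ≠ 0 := by
  rw [Nat.cast_sub Fintype.card_pos, FiniteField.cast_card_eq_zero, Nat.cast_one, zero_sub]
  exact neg_ne_zero.mpr one_ne_zero

theorem negOne_mulVec (x : W) : (negOne n F : Mn) *ᵥ x = -x := by
  show (-1 : Mn) *ᵥ x = -x
  rw [Matrix.neg_mulVec, Matrix.one_mulVec]

theorem negOne_comm (g : Ln) : negOne n F * g = g * negOne n F := by
  refine symp_ext fun x => ?_
  rw [mul_mulVec, mul_mulVec, negOne_mulVec, negOne_mulVec, mulVec_neg]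

theorem negOne_fpf (h2 : (2 : F) ≠ 0) (x : W) (h : (negOne n F : Mn) *ᵥ x = x) : x = 0 := by
  rw [negOne_mulVec] at h
  have e : (2 : F) • x = 0 := by
    rw [two_smul]; nth_rewrite 1 [← h]; exact neg_add_cancel x
  exact (smul_eq_zero.mp e).resolve_left h2

theorem negOne_sq : (negOne n F : Ln) ^ 2 = 1 := by
  refine symp_ext fun x => ?_
  rw [sq, mul_mulVec, negOne_mulVec, negOne_mulVec, neg_neg]
  simp

/-- The image is everything: odd characteristic. -/
theorem top_false_odd (hn : 1 ≤ n) (h2 : (2 : F) ≠ 0) (hperf : commutator Ln = ⊤) (K : Subgroup Gs) (hK : NoRoot K)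
    (htop : kbar K = ⊤) : False := by
  obtain ⟨x, hx⟩ := exists_conj_lift K (d := negOne n F) (htop ▸ trivial) (r := 2) negOne_sq (by exact_mod_cast h2)
    (negOne_fpf h2)
  set K' := conjSub (qS x 0) K
  have htop' : kbar K' = ⊤ := by rw [kbar_conjSub]; exact htop
  have hl : ∀ g : Ln, ∃ z : F, qS (0 : W) z * levi g ∈ K' := fun g =>
    lift_comm hx (negOne_fpf h2) (htop' ▸ trivial) (negOne_comm g)
  have hall : (⊤ : Subgroup Ln) ≤ K'.comap levi := by
    rw [← hperf, commutator_def, Subgroup.commutator_le]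
    intro a _ b _
    obtain ⟨z, hz⟩ := hl a
    obtain ⟨z', hz'⟩ := hl b
    exact lift_commutator hz hz'
  exact root_false (K := K') hK.conjSub (u := stdE ⟨0, hn⟩)
    (fun e => by simpa [stdE] using congrFun e (Sum.inr ⟨0, hn⟩)) fun c => hall trivial

theorem two_eq_zero_add_self (h2 : (2 : F) = 0) {M : Type*} [AddCommGroup M] [Module F M] (x : M) : x + x = 0 := by
  rw [← two_smul F x, h2, zero_smul]

theorem isSquare_all (h2 : (2 : F) = 0) (c : F) : ∃ l : F, l ^ 2 = c := by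
  haveI : CharP F 2 := CharTwo.of_one_ne_zero_of_two_eq_zero one_ne_zero h2
  exact ((isSquare_iff_exists_sq _).mp (FiniteField.isSquare_of_char_two (ringChar.eq F 2) c)).imp fun _ h => h.symm

/-- In characteristic two a family over the squares has trivial root part. -/
theorem square_family_mem (h2 : (2 : F) = 0) (hq : 4 ≤ q) {K : Subgroup Gs} (x : F) (u : W) (hu : Bn u u = 0) (z : F)
    (h : ∀ l : F, l ≠ 0 → qS ((l * x) • u) z * levi (spT u (l ^ 2)) ∈ K) : z ∈ aSub K := by
  obtain ⟨a, ha⟩ := exists_unit_sq_ne_one hq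
  set l := (a : F)
  have hl1 : l + 1 ≠ 0 := fun e => ha (by
    have : l = 1 := by linear_combination e - h2
    rw [this, one_pow])
  have e1 := h 1 one_ne_zero
  have e2 := h l a.ne_zero
  have e3 := h (l + 1) hl1
  have e12 := K.mul_mem e2 e1
  have hfix : (spT u (l ^ 2) : Mn) *ᵥ ((1 * x) • u) = (1 * x) • u := by
    rw [spT_mulVec, form_smul_left, hu]; simp
  rw [qS_levi_mul, hfix, one_pow, ← spT_add, form_smul_left, form_smul_right, hu, mul_zero, mul_zero, add_zero,
    ← add_smul, ← add_mul, two_eq_zero_add_self h2 z] at e12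
  have hsq : (l + 1) ^ 2 = l ^ 2 + 1 := by linear_combination l * h2
  rw [hsq] at e3
  have := K.mul_mem e3 (K.inv_mem e12)
  rw [show qS (((l + 1) * x) • u) z * levi (spT u (l ^ 2 + 1)) *
      (qS (((l + 1) * x) • u) (0 : F) * levi (spT u (l ^ 2 + 1)))⁻¹ =
      qS (((l + 1) * x) • u) z * (qS (((l + 1) * x) • u) (0 : F))⁻¹ by group, qS_inv, qS_mul, add_neg_cancel,
    form_neg_right, form_self, neg_zero, add_zero, add_zero] at this
  exact this

/-- The image is everything: characteristic two. -/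
theorem top_false_even (hn : 1 ≤ n) (h2 : (2 : F) = 0) (hq : 4 ≤ q) (K : Subgroup Gs) (hK : NoRoot K)
    (hidx : K.index < pts q (2 * (n + 1))) (htop : kbar K = ⊤) (hr : rbar K ≠ ⊤) : False := by
  -- the image of the radical is trivial
  have hr0 : ∀ r ∈ rbar K, r = 0 := by
    intro r hr'
    by_contra h0
    refine hr (eq_top_iff.mpr fun y _ => ?_)
    by_cases hy : y = 0
    · rw [hy]; exact (rbar K).zero_mem
    · obtain ⟨g, hg⟩ := exists_symp_mulVec_eq h0 hy
      exact hg ▸ kbar_rbar (htop ▸ trivial) hr'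
  obtain ⟨a, ha⟩ := exists_unit_sq_ne_one hq
  have ha1 : a ≠ 1 := fun e => ha (by rw [e, Units.val_one, one_pow])
  have hfpf : ∀ x : W, (torEl (fun _ : Fin n => a) : Mn) *ᵥ x = x → x = 0 := torEl_fpf _ fun _ => ha1
  obtain ⟨x0, hd⟩ := exists_conj_lift K (d := torEl fun _ : Fin n => a) (htop ▸ trivial) (r := q - 1)
    (torEl_pow_pred _) cast_pred_ne_zero hfpf
  set K' := conjSub (qS x0 0) K
  have hK' : NoRoot K' := hK.conjSub
  have htop' : kbar K' = ⊤ := by rw [kbar_conjSub]; exact htop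
  have hr0' : ∀ r ∈ rbar K', r = 0 := by rw [rbar_conjSub]; exact hr0
  have hidx' : K'.index < pts q (2 * (n + 1)) := by rw [index_conjSub]; exact hidx
  have htor : ∀ b : Fin n → Fˣ, levi (torEl b) ∈ K' := fun b => by
    obtain ⟨z, hz⟩ := lift_comm hd hfpf (htop' ▸ trivial) (torEl_comm _ b)
    exact lift_torsion hz (torEl_pow_pred b) cast_pred_ne_zero
  let i0 : Fin n := ⟨0, hn⟩
  set u : W := stdE i0
  have hu0 : u ≠ 0 := fun e => by simpa [u, stdE] using congrFun e (Sum.inr i0)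
  -- the lift of the transvection of centre `u`
  obtain ⟨w, z, hk⟩ := mem_kbar.mp (show spT u (1 : F) ∈ kbar K' from htop' ▸ trivial)
  have hw1 : ∀ i : Fin n, i ≠ i0 → w (Sum.inr i) = 0 ∧ w (Sum.inl i) = 0 := by
    intro i hi
    set b : Fin n → Fˣ := fun j => if j = i0 then 1 else a
    have hbu : (torEl b : Mn) *ᵥ u = u := by rw [torEl_stdE, show b i0 = 1 from if_pos rfl]; simp [u]
    have hcomm : levi (torEl b) * levi (spT u (1 : F)) * (levi (torEl b))⁻¹ = levi (spT u (1 : F)) := by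
      rw [← map_inv, ← map_mul, ← map_mul, conj_spT, hbu]
    have h := K'.mul_mem (K'.mul_mem (K'.mul_mem (htor b) hk) (K'.inv_mem (htor b))) (K'.inv_mem hk)
    rw [show levi (torEl b) * (qS w z * levi (spT u 1)) * (levi (torEl b))⁻¹ * (qS w z * levi (spT u (1 : F)))⁻¹ =
        levi (torEl b) * qS w z * (levi (torEl b))⁻¹ *
          (levi (torEl b) * levi (spT u (1 : F)) * (levi (torEl b))⁻¹) * (levi (spT u (1 : F)))⁻¹ * (qS w z)⁻¹ by group,
      hcomm, mul_inv_cancel_right, levi_conj_qS, qS_inv, qS_mul] at h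
    have e := hr0' _ ⟨_, h⟩
    have hbi : b i = a := if_neg hi
    constructor
    · have e1 := congrFun e (Sum.inr i)
      simp only [Pi.add_apply, Pi.neg_apply, torEl_mulVec, Sum.elim_inr, hbi, Pi.zero_apply] at e1
      have : ((a : F) - 1) * w (Sum.inr i) = 0 := by linear_combination e1
      exact (mul_eq_zero.mp this).resolve_left (sub_ne_zero.mpr fun e => ha1 (Units.ext e))
    · have e1 := congrFun e (Sum.inl i)
      simp only [Pi.add_apply, Pi.neg_apply, torEl_mulVec, Sum.elim_inl, hbi, Pi.zero_apply] at e1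
      have : (((a⁻¹ : Fˣ) : F) - 1) * w (Sum.inl i) = 0 := by linear_combination e1
      exact (mul_eq_zero.mp this).resolve_left (sub_ne_zero.mpr fun e => ha1 (inv_eq_one.mp (Units.ext e)))
  have hsq := K'.mul_mem hk hk
  rw [qS_levi_mul, ← spT_add, one_add_one_eq_two, h2, spT_zero, map_one, mul_one] at hsq
  have e := hr0' _ ⟨_, hsq⟩
  rw [spT_mulVec, ← add_assoc, two_eq_zero_add_self h2 w, zero_add, one_mul, smul_eq_zero] at e
  have hwl : w (Sum.inl i0) = 0 := by
    have h3 := e.resolve_right hu0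
    simpa [u, form_stdE_right] using h3
  obtain ⟨x, hwx⟩ : ∃ x : F, w = x • u := by
    refine ⟨w (Sum.inr i0), funext fun j => ?_⟩
    rcases j with i | i <;> by_cases hi : i = i0
    · subst hi; simp [u, stdE, hwl]
    · simp [u, stdE, (hw1 i hi).2]
    · subst hi; simp [u, stdE]
    · simp [u, stdE, hi, (hw1 i hi).1]
  subst hwx
  have hfam : ∀ l : F, l ≠ 0 → qS ((l * x) • u) z * levi (spT u (l ^ 2)) ∈ K' := by
    intro l hl
    set T := torEl fun _ : Fin n => Units.mk0 l hl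
    have h := K'.mul_mem (K'.mul_mem (htor fun _ => Units.mk0 l hl) hk) (K'.inv_mem (htor fun _ => Units.mk0 l hl))
    rw [show levi T * (qS (x • u) z * levi (spT u (1 : F))) * (levi T)⁻¹ =
      levi T * qS (x • u) z * (levi T)⁻¹ * (levi T * levi (spT u (1 : F)) * (levi T)⁻¹) by group, levi_conj_qS,
      ← map_inv, ← map_mul, ← map_mul, conj_spT, mulVec_smul,
      show (T : Mn) *ᵥ u = l • u from torEl_stdE _ i0, spT_smul, mul_one, smul_smul, mul_comm x l] at h
    exact h
  have hzA : z ∈ aSub K' := square_family_mem h2 hq x u (form_self u) z hfam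
  have hfam0 : ∀ l : F, l ≠ 0 → qS ((l * x) • u) (0 : F) * levi (spT u (l ^ 2)) ∈ K' := by
    intro l hl
    have h := K'.mul_mem (mem_aSub.mp hzA) (hfam l hl)
    rwa [← mul_assoc, qS_mul, zero_add, form_zero_left, add_zero, two_eq_zero_add_self h2 z] at h
  by_cases hx : x = 0
  · refine root_false hK' hu0 fun c => ?_
    by_cases hc : c = 0
    · rw [hc, spT_zero, map_one]; exact K'.one_mem
    obtain ⟨l, rfl⟩ := isSquare_all h2 c
    have hl : l ≠ 0 := fun e => hc (by rw [e]; simp)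
    have h := hfam0 l hl
    rwa [hx, mul_zero, zero_smul, qS_zero, one_mul] at h
  -- no scalars remain
  have hγ : ∀ μ ∈ scal K', μ = 1 := by
    rintro _ ⟨k, hk', rfl⟩
    set μ := chiHom k
    have hk1 : (hTor μ : Gs)⁻¹ * k.1 ∈ vecStab (e0 : V) := by
      rw [mem_vecStab, mul_mulVec, chiHom_spec, ← hTor_mulVec_e0, inv_mulVec_cancel]
    obtain ⟨w1, z1, h1⟩ := exists_normal_form ⟨_, hk1⟩
    obtain ⟨w2, z2, h2'⟩ := mem_kbar.mp (show piHom ⟨_, hk1⟩ ∈ kbar K' from htop' ▸ trivial)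
    generalize piHom ⟨_, hk1⟩ = g at h1 h2'
    have h := K'.mul_mem (Subgroup.mem_subgroupOf.mp hk') (K'.inv_mem h2')
    rw [show (k.1 : Gs) = hTor μ * ((hTor μ)⁻¹ * k.1) by rw [mul_inv_cancel_left],
      show (hTor μ)⁻¹ * (k.1 : Gs) = qS w1 z1 * levi g from h1,
      show hTor μ * (qS w1 z1 * levi g) * (qS w2 z2 * levi g)⁻¹ =
        hTor μ * (qS w1 z1 * (qS w2 z2)⁻¹) by group, qS_inv, qS_mul] at h
    set w3 := w1 + -w2
    set z3 := z1 + -z2 + Bn w1 (-w2)
    set d := torEl fun _ : Fin n => a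
    have hc := K'.mul_mem (K'.inv_mem h) (K'.mul_mem (K'.mul_mem hd h) (K'.inv_mem hd))
    rw [show (hTor μ * qS w3 z3)⁻¹ * (levi d * (hTor μ * qS w3 z3) * (levi d)⁻¹) =
      (qS w3 z3)⁻¹ * ((hTor μ)⁻¹ * (levi d * hTor μ)) * qS w3 z3 * (levi d)⁻¹ by group, ← hTor_levi,
      inv_mul_cancel_left, show (qS w3 z3)⁻¹ * levi d * qS w3 z3 * (levi d)⁻¹ =
        (qS w3 z3)⁻¹ * (levi d * qS w3 z3 * (levi d)⁻¹) by group, levi_conj_qS, qS_inv, qS_mul] at hc
    have hw3 : w3 = 0 := hfpf _ (neg_add_eq_zero.mp (hr0' _ ⟨_, hc⟩)).symm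
    rw [hw3] at h
    have hk0 := hfam0 1 one_ne_zero
    rw [one_mul, one_pow] at hk0
    have hc2 := K'.mul_mem (K'.mul_mem (K'.mul_mem h hk0) (K'.inv_mem h)) (K'.inv_mem hk0)
    have e1 : qS (0 : W) z3 * qS (x • u) (0 : F) = qS (x • u) (0 : F) * qS (0 : W) z3 := by
      rw [qS_mul, qS_mul, form_zero_left, form_zero_right]; simp
    rw [show hTor μ * qS 0 z3 * (qS (x • u) 0 * levi (spT u (1 : F))) * (hTor μ * qS 0 z3)⁻¹ *
        (qS (x • u) 0 * levi (spT u (1 : F)))⁻¹ =
        hTor μ * ((qS 0 z3 * qS (x • u) 0) * levi (spT u (1 : F)) * (qS 0 z3)⁻¹) * (hTor μ)⁻¹ *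
          (levi (spT u (1 : F)))⁻¹ * (qS (x • u) 0)⁻¹ by group, e1] at hc2
    have e2 := (levi_comm_qS (spT u (1 : F)) z3).eq
    rw [mul_assoc (qS (x • u) 0) (qS 0 z3) (levi (spT u (1 : F))), e2,
      show qS (x • u) 0 * (levi (spT u (1 : F)) * qS 0 z3) * (qS 0 z3)⁻¹ =
        qS (x • u) 0 * levi (spT u (1 : F)) by group,
      show hTor μ * (qS (x • u) 0 * levi (spT u (1 : F))) * (hTor μ)⁻¹ =
        hTor μ * qS (x • u) 0 * (hTor μ)⁻¹ * (hTor μ * levi (spT u (1 : F)) * (hTor μ)⁻¹) by group,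
      hTor_levi, mul_inv_cancel_right, hTor_conj_qS, mul_inv_cancel_right, qS_inv, qS_mul] at hc2
    have e3 := hr0' _ ⟨_, hc2⟩
    rw [← sub_eq_add_neg, smul_smul, ← sub_smul, smul_eq_zero, or_iff_left hu0] at e3
    exact Units.ext (mul_right_cancel₀ hx (by rw [Units.val_one, one_mul]; exact sub_eq_zero.mp e3))
  have hγ1 : Nat.card (scal K') = 1 := by
    haveI : Subsingleton (scal K') := ⟨fun p r => Subtype.ext ((hγ _ p.2).trans (hγ _ r.2).symm)⟩
    exact Nat.card_unique
  have hri : (rbar K').index = q ^ (2 * n) := by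
    haveI : Subsingleton (rbar K') := ⟨fun p r => Subtype.ext ((hr0' _ p.2).trans (hr0' _ r.2).symm)⟩
    rw [← card_W (n := n), ← (rbar K').card_mul_index, Nat.card_unique, one_mul]
  refine count_false K' hidx' (Φ := 2 * (q - 1)) ?_ ?_
  · have h := card_addSubgroup_mul_two_le _ (aSub_ne_top hK')
    rw [hγ1, one_mul, ← mul_assoc, mul_comm _ (q - 1), mul_comm (Nat.card (aSub K')) 2]
    exact Nat.mul_le_mul_left _ h
  · rw [htop', Subgroup.index_top, one_mul, hri]
    have e := pts_mul_pred (Fintype.card_pos (α := F)) (2 * (n + 1))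
    have hq3 : q ^ 2 ≤ 2 * (q - 1) * (q - 1) := by
      obtain ⟨p, hp⟩ : ∃ p, q = p + 4 := ⟨q - 4, by omega⟩
      rw [hp, show p + 4 - 1 = p + 3 by omega]
      nlinarith
    refine Nat.le_of_mul_le_mul_right (c := q - 1) ?_ (by omega)
    rw [e]
    calc q ^ (2 * (n + 1)) - 1 ≤ q ^ (2 * (n + 1)) := Nat.sub_le _ _
      _ = q ^ 2 * q ^ (2 * n) := by rw [← pow_add]; congr 1; omega
      _ ≤ 2 * (q - 1) * (q - 1) * q ^ (2 * n) := Nat.mul_le_mul_right _ hq3
      _ = 2 * (q - 1) * q ^ (2 * n) * (q - 1) := by ring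

end CfsgLib.MinIndexPSp
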